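import Cfsg.Agent.Lib.SuzCo0.CentGroup
import Cfsg.Agent.Lib.Cores.GenFitting
import Cfsg.Agent.Lib.PGroups.Frattini
import Cfsg.Agent.Lib.PGroups.Extraspecial
import Cfsg.Prelude.Def_Transfer

/-!
The centraliser of an involution in the section: its generalised Fitting subgroup is extraspecial of
order 128 with quotient the commutator subgroup of the orthogonal group of minus type, and the
involution has another conjugate in it.
-/

set_option autoImplicit false
set_option maxRecDepth 100000
set_option synthInstance.maxSize 2000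

namespace CfsgLib.SuzCo0.Cent

open Cfsg CfsgLib.Leech CfsgLib.Fischer2 CfsgLib.SuzukiType CfsgLib.ClassicalForms
open scoped commutatorElement

instance finite_O : Finite O := Nat.finite_of_card_ne_zero (by rw [card_O]; omega)

theorem act_hm (k : Fin 2) (v : V) : act (el (hm k)) v = colMap k v := by
  have hb : ∀ i, act (el (hm k)) (bI i) = colV k i := fun i => by
    obtain ⟨e, he⟩ := hm_conj k i
    rw [act, X_bI, he, theta_X]
  have h0 : act (el (hm k)) 0 = 0 := by
    have h := act_add (hm_mem_Nz k) 0 0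
    rw [add_zero] at h
    exact right_eq_add.1 h
  have hs : ∀ l : List (Fin 6),
      act (el (hm k)) (l.map bI).sum = (l.map (colV k)).sum := by
    intro l
    induction l with
    | nil => simpa using h0
    | cons i l ih => simp only [List.map_cons, List.sum_cons, act_add (hm_mem_Nz k), hb, ih]
  conv_lhs => rw [← xiIdx_sum v, hs]
  rfl

/-- The element of a word in the two further elements. -/
noncomputable def gW (w : List (Fin 2)) : Nz := (w.map fun k => (⟨el (hm k), hm_mem_Nz k⟩ : Nz)).prod

theorem ap_gW : ∀ (w : List (Fin 2)) (v : V), ap (rho (gW w)) v = wAct w v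
  | [], v => by simp [gW, wAct, ap_one]
  | k :: w, v => by
    have ih := ap_gW w v
    simp only [gW, List.map_cons, List.prod_cons, map_mul, ap_mul] at ih ⊢
    rw [ih, ap_rho, act_hm]
    rfl

/-- The stabiliser of a vector. -/
def fixO (b : V) : Subgroup O where
  carrier := {g | ap g b = b}
  one_mem' := ap_one b
  mul_mem' := fun {g h} hg hh => by
    show ap (g * h) b = b
    rw [ap_mul, show ap h b = b from hh, show ap g b = b from hg]
  inv_mem' := fun {g} hg => by
    show ap g⁻¹ b = b
    conv_lhs => rw [← show ap g b = b from hg]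
    exact ap_inv_ap g b

/-- The chain of stabilisers in the image. -/
noncomputable def chainJ : ℕ → Subgroup O
  | 0 => rho.range
  | l + 1 => chainJ l ⊓ fixO (cBase.getD l 0)

theorem mem_chainJ {l : ℕ} {g : O} :
    g ∈ chainJ l ↔ g ∈ rho.range ∧ ∀ m < l, ap g (cBase.getD m 0) = cBase.getD m 0 := by
  induction l with
  | zero => simp [chainJ]
  | succ l ih =>
    rw [chainJ, Subgroup.mem_inf, ih]
    constructor
    · rintro ⟨⟨h1, h2⟩, h3⟩
      refine ⟨h1, fun m hm => ?_⟩
      rcases Nat.lt_succ_iff_lt_or_eq.1 hm with h | h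
      · exact h2 m h
      · exact h ▸ h3
    · exact fun ⟨h1, h2⟩ => ⟨⟨h1, fun m hm => h2 m (Nat.lt_succ_of_lt hm)⟩, h2 l (Nat.lt_succ_self l)⟩

theorem card_chainJ_step {l : ℕ} (hl : l < 5) :
    [27, 16, 5, 4, 3].getD l 0 * Nat.card (chainJ (l + 1)) ≤ Nat.card (chainJ l) := by
  have h := transv_ok
  simp only [List.all_eq_true, List.mem_range, Bool.and_eq_true, decide_eq_true_eq] at h
  obtain ⟨⟨hnd, hlen⟩, hw⟩ := h l hl
  rw [← hlen]
  have hb : ∀ s : chainJ (l + 1), ap (s : O) (cBase.getD l 0) = cBase.getD l 0 := fun s =>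
    (mem_chainJ.1 s.2).2 l (Nat.lt_succ_self l)
  let f : Fin (transv l).length × chainJ (l + 1) → chainJ l := fun p =>
    ⟨rho (gW ((transv l)[p.1.1]).2) * p.2.1, by
      refine mul_mem (mem_chainJ.2 ⟨⟨_, rfl⟩, fun m hm => ?_⟩) p.2.2.1
      rw [ap_gW]
      exact (hw _ (List.getElem_mem p.1.2)).2 m hm⟩
  have hf : Function.Injective f := by
    rintro ⟨i, s⟩ ⟨j, t⟩ e
    have e' : rho (gW ((transv l)[i.1]).2) * s.1 = rho (gW ((transv l)[j.1]).2) * t.1 :=
      congrArg Subtype.val e
    have ev := congrArg (fun g : O => ap g (cBase.getD l 0)) e'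
    simp only [ap_mul, hb, ap_gW, (hw _ (List.getElem_mem i.2)).1,
      (hw _ (List.getElem_mem j.2)).1] at ev
    have hij : i = j := by
      refine Fin.ext ((List.Nodup.getElem_inj_iff hnd (hi := by simp [i.2]) (hj := by simp [j.2])).1 ?_)
      simpa using ev
    subst hij
    exact Prod.ext rfl (Subtype.ext (mul_left_cancel e'))
  have := Nat.card_le_card_of_injective f hf
  rwa [Nat.card_prod, Nat.card_fin] at this

theorem le_card_range : 25920 ≤ Nat.card rho.range := by
  have h0 := card_chainJ_step (l := 0) (by norm_num)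
  have h1 := card_chainJ_step (l := 1) (by norm_num)
  have h2 := card_chainJ_step (l := 2) (by norm_num)
  have h3 := card_chainJ_step (l := 3) (by norm_num)
  have h4 := card_chainJ_step (l := 4) (by norm_num)
  have h5 : 0 < Nat.card (chainJ 5) := Nat.card_pos
  simp only [List.getD_cons_zero, List.getD_cons_succ, Nat.reduceAdd] at h0 h1 h2 h3 h4
  show 25920 ≤ Nat.card (chainJ 0)
  omega

theorem commute_of_mk_commute {c : ↥(Subgroup.centralizer (aGroup : Set Co0))}
    (hc : QuotientGroup.mk' modGroup c * zS = zS * QuotientGroup.mk' modGroup c) :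
    (c : Co0) * eElem 6 = eElem 6 * c := by
  set T : ↥(Subgroup.centralizer (aGroup : Set Co0)) := ⟨eElem 6, eElem_mem 6⟩ with hT
  have h0 : QuotientGroup.mk' modGroup (c * T) = QuotientGroup.mk' modGroup (T * c) := by
    rw [map_mul, map_mul]; exact hc
  have hmem : ((c : Co0) * eElem 6)⁻¹ * (eElem 6 * c) ∈ aGroup ⊔ Subgroup.center Co0 :=
    Subgroup.mem_subgroupOf.1 (QuotientGroup.eq.1 h0)
  obtain ⟨w, hw, hn⟩ := exists_scalar hmem
  set n := (w.map eElem).prod with hn'
  have hn2 : eElem 6 * c = c * eElem 6 * n := by rw [hn, mul_inv_cancel_left]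
  have hTT : eElem 6 * eElem 6 = 1 := by
    have h := t_ok
    simp only [Bool.and_eq_true] at h
    simpa using eq_of_eSame h.1
  have hnc : ∀ g ∈ Subgroup.centralizer (aGroup : Set Co0), g * n = n * g := fun g hg =>
    comm_of_mem_sup (scalar_mem hw) hg
  have hsq : n * n = 1 := by
    have e : (c : Co0) = c * (n * n) := by
      calc (c : Co0) = eElem 6 * (eElem 6 * c) := by rw [← mul_assoc, hTT, one_mul]
        _ = eElem 6 * (c * eElem 6 * n) := by rw [← hn2]
        _ = eElem 6 * c * (eElem 6 * n) := by simp only [mul_assoc]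
        _ = c * eElem 6 * n * (eElem 6 * n) := by rw [hn2]
        _ = c * (eElem 6 * (n * eElem 6) * n) := by simp only [mul_assoc]
        _ = c * (n * n) := by rw [← hnc _ (eElem_mem 6), ← mul_assoc (eElem 6), hTT, one_mul]
    exact (mul_eq_left.1 e.symm)
  have hs := scalar_sq_ok
  simp only [List.all_eq_true, Bool.or_eq_true, decide_eq_true_eq, Bool.not_eq_true'] at hs
  rcases hs w hw with (h | rfl) | rfl
  · exact absurd (eSame_of_eq (u := w ++ w) (v := [])
      (by rw [List.map_append, List.prod_append]; simpa using hsq)) (by simp [h])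
  · simpa [hn'] using hn2.symm
  · exfalso
    refine not_conj_neg (c : Co0)⁻¹ ?_
    have hnn : n = negAut := by simp [hn', eElem_eleven]
    rw [inv_inv, mul_assoc, hn2, hnn, ← mul_assoc, ← mul_assoc, inv_mul_cancel, one_mul]
    exact Subgroup.mem_center_iff.1 negAut_mem_center _

theorem natCard_centralizer_zS : Nat.card (Subgroup.centralizer ({zS} : Set Sx)) ≤ 5307120 := by
  haveI : Finite Co0 := CfsgLib.Leech.finite_Co0
  set K := Subgroup.centralizer ({zS} : Set Sx)
  set P := K.comap (QuotientGroup.mk' modGroup)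
  have hX : ∀ v : leechLattice, coordVec (xElem • v) = matAct xMat (coordVec v) := coord_xElem
  have hT : ∀ v : leechLattice, coordVec (eElem 6 • v) = matAct tMat (coordVec v) := by
    have e : eM 6 = tMat := by decide +kernel
    intro v
    show coordVec (matAut (eM 6) (eM_ok 6) • v) = _
    rw [coordVec_matAut, e]
  have hb := natCard_centralizer_le hX hT
  have hP : Nat.card P ≤ 31842720 := by
    refine le_trans ?_ hb
    refine Nat.card_le_card_of_injective
      (fun p : P => (⟨((p : ↥(Subgroup.centralizer (aGroup : Set Co0))) : Co0), ?_⟩ :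
        Subgroup.centralizer ({xElem, eElem 6} : Set Co0)))
      fun p p' e => Subtype.ext (Subtype.ext (congrArg Subtype.val e :))
    refine Subgroup.mem_centralizer_iff.2 fun y hy => ?_
    rcases hy with rfl | rfl
    · exact Subgroup.mem_centralizer_iff.1 p.1.2 xElem (Subgroup.mem_zpowers xElem)
    · exact (commute_of_mk_commute (Subgroup.mem_centralizer_singleton_iff.1 p.2)).symm
  have h1 : P.index = K.index :=
    Subgroup.index_comap_of_surjective _ (QuotientGroup.mk'_surjective modGroup)
  have h2 := P.card_mul_index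
  have h3 := K.card_mul_index
  have h4 := modGroup.card_eq_card_quotient_mul_card_subgroup
  have hm : Nat.card modGroup = 6 := by
    rw [Nat.card_congr (Subgroup.subgroupOfEquivOfLe sup_le_centralizer).toEquiv, card_sup]
  rw [hm, ← h2, h1] at h4
  have h5 : Nat.card P * K.index = Nat.card K * 6 * K.index := by
    rw [h4, mul_right_comm, h3]
  have h6 : Nat.card P = Nat.card K * 6 :=
    Nat.eq_of_mul_eq_mul_right (Nat.pos_of_ne_zero Subgroup.index_ne_zero_of_finite) h5
  omega

theorem rho_ker_ge : Q.subgroupOf Nz ≤ rho.ker := by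
  intro c hc
  rw [MonoidHom.mem_ker]
  refine orth_ext fun v => ?_
  have hcQ : (c : Sx) ∈ Q := Subgroup.mem_subgroupOf.1 hc
  show theta ((c : Sx) * X v * (c : Sx)⁻¹) = v
  have h := theta_mul hcQ (inv_mem hcQ)
  rw [mul_inv_cancel, show theta 1 = 0 by simpa [zb] using theta_zb false] at h
  rw [theta_mul (mul_mem hcQ (X_mem_Q v)) (inv_mem hcQ), theta_mul hcQ (X_mem_Q v), theta_X',
    add_comm (theta (c : Sx)) v, add_assoc, ← h, add_zero]

theorem counts : Nat.card rho.range = 25920 ∧ rho.ker = Q.subgroupOf Nz ∧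
    Nz = Subgroup.centralizer {zS} := by
  have hle : Nat.card Nz ≤ Nat.card (Subgroup.centralizer ({zS} : Set Sx)) :=
    Nat.le_of_dvd Nat.card_pos (Subgroup.card_dvd_of_le inf_le_left)
  have hK := natCard_centralizer_zS
  have hQ : Nat.card (Q.subgroupOf Nz) = 128 := by
    rw [Nat.card_congr (Subgroup.subgroupOfEquivOfLe Q_le_Nz).toEquiv, card_Q]; norm_num
  obtain ⟨a, ha⟩ : 128 ∣ Nat.card rho.ker := hQ ▸ Subgroup.card_dvd_of_le rho_ker_ge
  have hker : 0 < Nat.card rho.ker := Nat.card_pos
  have hmul : Nat.card rho.range * Nat.card rho.ker = Nat.card Nz := by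
    rw [← Subgroup.index_ker, Subgroup.index_mul_card]
  obtain ⟨b, hb⟩ : Nat.card rho.range ∣ 51840 := card_O ▸ rho.range.card_subgroup_dvd_card
  have hr := le_card_range
  have hb2 : b ≤ 2 := by nlinarith
  have hbr : Nat.card rho.range = 25920 := by
    rcases b with _ | _ | b
    · omega
    · exfalso
      have : 51840 * 128 ≤ Nat.card Nz := by
        rw [← hmul]; exact Nat.mul_le_mul (by omega) (by omega)
      omega
    · have : b = 0 := by omega
      subst this; omega
  rw [hbr] at hmul
  have ha1 : a = 1 := by omega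
  have hk : rho.ker = Q.subgroupOf Nz :=
    (Subgroup.eq_of_le_of_card_ge rho_ker_ge (by omega)).symm
  refine ⟨hbr, hk, ?_⟩
  obtain ⟨m, hm⟩ := Subgroup.card_dvd_of_le (inf_le_left : Nz ≤ Subgroup.centralizer ({zS} : Set Sx))
  have hm1 : m = 1 := by
    have hpos : 0 < Nat.card (Subgroup.centralizer ({zS} : Set Sx)) := Nat.card_pos
    have hN : Nat.card Nz = 3317760 := by omega
    have hm' : Nat.card (Subgroup.centralizer ({zS} : Set Sx)) = Nat.card Nz * m := hm
    rw [hN] at hm'
    omega
  exact Subgroup.eq_of_le_of_card_ge inf_le_left (hm.trans (by rw [hm1, mul_one]; rfl)).le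

/-- The centraliser of the involution. -/
noncomputable abbrev H : Subgroup Sx := Subgroup.centralizer {zS}

theorem H_le_Nz : H ≤ Nz := counts.2.2.ge

/-- The action of the centraliser. -/
noncomputable def rhoH : H →* O := rho.comp (Subgroup.inclusion H_le_Nz)

/-- The subgroup of order 128 in the centraliser. -/
noncomputable abbrev QH : Subgroup H := Q.subgroupOf H

theorem ker_rhoH : rhoH.ker = QH := by
  ext c
  rw [MonoidHom.mem_ker]
  show rho (Subgroup.inclusion H_le_Nz c) = 1 ↔ _
  rw [← MonoidHom.mem_ker, counts.2.1, Subgroup.mem_subgroupOf, Subgroup.mem_subgroupOf]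
  rfl

instance : QH.Normal := ker_rhoH ▸ rhoH.normal_ker

theorem range_rhoH : rhoH.range = rho.range := by
  refine le_antisymm (fun g ⟨c, hc⟩ => ⟨_, hc⟩) ?_
  rintro g ⟨c, rfl⟩
  exact ⟨⟨c.1, c.2.1⟩, rfl⟩

theorem range_eq_commutator : rho.range = commutator O := by
  have h25 := counts.1
  have hidx : rho.range.index = 2 := by
    have h := rho.range.card_mul_index
    rw [h25, card_O] at h
    omega
  have hle : commutator O ≤ rho.range := by
    rw [commutator_def, Subgroup.commutator_le]
    intro a _ b _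
    rw [commutatorElement_def, Subgroup.mul_mem_iff_of_index_two hidx,
      Subgroup.mul_mem_iff_of_index_two hidx, Subgroup.mul_mem_iff_of_index_two hidx,
      inv_mem_iff, inv_mem_iff]
    tauto
  refine (Subgroup.eq_of_le_of_card_ge hle ?_).symm
  have h := card_Omega
  rw [Nat.card_congr (commutatorCongr (isoMat qM (qMinus_apply 2 1 1))).toEquiv] at h
  change 2 * Nat.card (commutator O) = 51840 at h
  omega

/-- The quotient is the commutator subgroup of the orthogonal group. -/
noncomputable def quotEquiv :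
    H ⧸ QH ≃* Cfsg.Omega (ZMod 2) (Cfsg.quadFormMinus 2 (ZMod 2) 1 1) :=
  (QuotientGroup.quotientMulEquivOfEq ker_rhoH.symm).trans
    ((QuotientGroup.quotientKerEquivRange rhoH).trans
      ((MulEquiv.subgroupCongr (range_rhoH.trans range_eq_commutator)).trans
        (commutatorCongr (isoMat qM (qMinus_apply 2 1 1))).symm))

theorem card_QH : Nat.card QH = 2 ^ 7 := by
  rw [Nat.card_congr (Subgroup.subgroupOfEquivOfLe (show Q ≤ H from Q_le_Nz.trans inf_le_left)).toEquiv,
    card_Q]

/-- A criterion for extraspecial 2-groups. -/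
theorem isExtraspecial_of {P : Type*} [Group P] [Finite P] (n : ℕ) (hP : Nat.card P = 2 ^ n) (z : P)
    (hz1 : z ≠ 1) (hzc : ∀ x, x * z = z * x) (hsq : ∀ x : P, x * x = 1 ∨ x * x = z)
    (hcen : ∀ x : P, (∀ y, x * y = y * x) → x = 1 ∨ x = z) (hne : ∃ x y : P, x * y ≠ y * x) :
    Cfsg.IsExtraspecial 2 P := by
  have : Fact (Nat.Prime 2) := ⟨Nat.prime_two⟩
  have hp : IsPGroup 2 P := IsPGroup.of_card hP
  have hzC : z ∈ Subgroup.center P := Subgroup.mem_center_iff.mpr hzc
  have hsqC : ∀ x : P, x * x ∈ Subgroup.center P := fun x => by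
    rcases hsq x with h | h <;> rw [h]
    · exact one_mem _
    · exact hzC
  have hcomm : commutator P ≤ Subgroup.center P := by
    rw [commutator_def, Subgroup.commutator_le]
    intro x _ y _
    have e : ⁅x, y⁆ = (x * x) * ((x⁻¹ * y) * (x⁻¹ * y)) * ((y⁻¹) * (y⁻¹)) := by
      rw [commutatorElement_def]; group
    rw [e]
    exact mul_mem (mul_mem (hsqC x) (hsqC _)) (hsqC _)
  have hfr : frattini P ≤ Subgroup.center P :=
    CfsgLib.PGroups.frattini_le_of hcomm fun x => by rw [pow_two]; exact hsqC x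
  have hmem : ∀ x ∈ Subgroup.center P, x = 1 ∨ x = z := fun x hx =>
    hcen x fun y => (Subgroup.mem_center_iff.mp hx y).symm
  have hcC : Subgroup.center P ≤ commutator P := by
    obtain ⟨x, y, hxy⟩ := hne
    have hc : ⁅x, y⁆ ∈ commutator P :=
      Subgroup.commutator_mem_commutator (Subgroup.mem_top x) (Subgroup.mem_top y)
    have hcz : ⁅x, y⁆ = z := by
      refine (hmem _ (hcomm hc)).resolve_left fun h => hxy ?_
      exact commutatorElement_eq_one_iff_mul_comm.mp h
    intro w hw
    rcases hmem w hw with rfl | rfl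
    · exact one_mem _
    · rw [← hcz]; exact hc
  refine ⟨⟨hp, le_antisymm hfr (hcC.trans (CfsgLib.PGroups.commutator_le_frattini hp)),
    le_antisymm hcomm hcC⟩, ?_⟩
  rw [show 2 = ({1, z} : Set P).ncard from (Set.ncard_pair (Ne.symm hz1)).symm]
  show Nat.card ((Subgroup.center P : Subgroup P) : Set P) = _
  rw [Nat.card_coe_set_eq]
  congr 1
  ext w
  constructor
  · exact hmem w
  · rintro (rfl | rfl)
    · exact one_mem _
    · exact hzC

theorem isExtraspecial_Q : Cfsg.IsExtraspecial 2 Q := by
  refine isExtraspecial_of 7 card_Q ⟨zS, zS_mem_Q⟩ (fun e => zS_ne_one (congrArg Subtype.val e))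
    (fun x => Subtype.ext (Nz_comm (Q_le_Nz x.2))) (fun x => ?_) (fun x hx => ?_) ?_
  · by_cases hq : q (theta (x : Sx)) = 0
    · exact Or.inl (Subtype.ext ((sq_theta x.2).2 hq))
    · right
      obtain ⟨v, e, hve⟩ := x.2
      refine Subtype.ext ?_
      show (x : Sx) * x = zS
      rw [hve] at hq ⊢
      rw [theta_X] at hq
      rw [mul_assoc, ← mul_assoc (zb e), zb_comm (zS_comm_X v), mul_assoc, zb_xor, Bool.xor_self,
        ← mul_assoc, X_mul_self, if_neg hq]
      simp [zb]
  · obtain ⟨v, e, hve⟩ := x.2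
    by_cases hv : v = 0
    · subst hv
      rw [X_zero, one_mul] at hve
      cases e
      · exact Or.inl (Subtype.ext hve)
      · exact Or.inr (Subtype.ext hve)
    · exfalso
      obtain ⟨-, -, i, hi⟩ := X_ne hv
      have h := congrArg Subtype.val (hx ⟨_, em_mem_Q i⟩)
      simp only [Subgroup.coe_mul, hve, mul_assoc, zb_comm (zS_comm_em i)] at h
      rw [← mul_assoc, ← mul_assoc] at h
      exact hi (mul_right_cancel h)
  · obtain ⟨-, -, i, hi⟩ := X_ne (show eV ≠ 0 by decide)
    exact ⟨⟨X eV, X_mem_Q eV⟩, ⟨_, em_mem_Q i⟩, fun h => hi (congrArg Subtype.val h)⟩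

theorem isExtraspecial_QH : Cfsg.IsExtraspecial 2 QH :=
  CfsgLib.PGroups.IsExtraspecial.of_mulEquiv
    (Subgroup.subgroupOfEquivOfLe (show Q ≤ H from Q_le_Nz.trans inf_le_left)).symm isExtraspecial_Q

theorem centralizer_QH_le : Subgroup.centralizer (QH : Set H) ≤ QH := by
  intro c hc
  rw [← ker_rhoH, MonoidHom.mem_ker]
  refine orth_ext fun v => ?_
  have hXH : X v ∈ H := Q_le_Nz.trans inf_le_left (X_mem_Q v)
  have h := congrArg Subtype.val
    (Subgroup.mem_centralizer_iff.1 hc ⟨X v, hXH⟩ (Subgroup.mem_subgroupOf.2 (X_mem_Q v)))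
  show theta ((c : Sx) * X v * (c : Sx)⁻¹) = v
  simp only [Subgroup.coe_mul] at h
  rw [← h, mul_inv_cancel_right, theta_X']

theorem eq_zero_or_all {W : AddSubgroup V} (hW : ∀ (k : Fin 2) (v : V), v ∈ W → colMap k v ∈ W)
    {v : V} (hv : v ∈ W) (hv0 : v ≠ 0) : ∀ u : V, u ∈ W := by
  have hw : ∀ (w : List (Fin 2)) (u : V), u ∈ W → wAct w u ∈ W := by
    intro w
    induction w with
    | nil => intro u hu; exact hu
    | cons k w ih => intro u hu; exact hW k _ (ih u hu)
  have he : eV ∈ W := by
    have h := reach_ok v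
    simp only [Bool.or_eq_true, decide_eq_true_eq, hv0, false_or] at h
    rw [← h]
    refine list_sum_mem fun y hy => ?_
    obtain ⟨w, -, rfl⟩ := List.mem_map.1 hy
    exact hw w v hv
  have hsing : ∀ u : V, q u = 0 → u ∈ W := by
    intro u hu
    by_cases hu0 : u = 0
    · exact hu0 ▸ W.zero_mem
    have h := transv_singular u
    simp only [Bool.or_eq_true, decide_eq_true_eq, List.any_eq_true, List.mem_map, hu0, hu,
      false_or, zero_ne_one] at h
    obtain ⟨_, ⟨p, hp, rfl⟩, rfl⟩ := h
    have ht := transv_ok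
    simp only [List.all_eq_true, List.mem_range, Bool.and_eq_true, decide_eq_true_eq] at ht
    rw [← ((ht 0 (by norm_num)).2 p hp).1]
    exact hw _ _ he
  have hb := basis_from_singular
  simp only [List.all_eq_true, Bool.and_eq_true, decide_eq_true_eq] at hb
  have hf : fV ∈ W := hsing _ (hb.1.1 fV (by simp)).1
  have hz1 : z1V ∈ W := by
    have := sub_mem (sub_mem (hsing _ hb.1.2.1) hf) he
    simpa using this
  have hz2 : z2V ∈ W := by
    have := sub_mem (sub_mem (hsing _ hb.2.1) hf) he
    simpa using this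
  intro u
  have hbI : ∀ i : Fin 6, bI i ∈ W := by
    intro i
    fin_cases i
    · exact he
    · exact hf
    · exact hsing _ (hb.1.1 e2V (by simp)).1
    · exact hsing _ (hb.1.1 f2V (by simp)).1
    · exact hz1
    · exact hz2
  rw [← xiIdx_sum u]
  refine list_sum_mem fun y hy => ?_
  obtain ⟨i, -, rfl⟩ := List.mem_map.1 hy
  exact hbI i

theorem generalizedFitting_H : Cfsg.generalizedFittingSubgroup H = QH := by
  haveI : Fact (Nat.Prime 2) := ⟨Nat.prime_two⟩
  have hQp : IsPGroup 2 QH := IsPGroup.of_card card_QH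
  have hle : QH ≤ Cfsg.fittingSubgroup H := CfsgLib.Cores.le_fittingSubgroup hQp.isNilpotent
  haveI hFn := CfsgLib.Cores.fittingSubgroup_normal H
  haveI hnil : Group.IsNilpotent (Cfsg.fittingSubgroup H) := CfsgLib.Cores.isNilpotent_fittingSubgroup
  set F := Cfsg.fittingSubgroup H with hF
  have hF2 : IsPGroup 2 F := by
    obtain ⟨k, m, hm, hFc⟩ := Nat.exists_eq_pow_mul_and_not_dvd Nat.card_pos.ne' 2 (by norm_num)
      (n := Nat.card F)
    suffices m = 1 by exact IsPGroup.of_card (n := k) (by rw [hFc, this, mul_one])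
    by_contra hm1
    obtain ⟨p, hp, hpm⟩ := Nat.exists_prime_and_dvd hm1
    have hp2 : p ≠ 2 := fun e => hm (e ▸ hpm)
    haveI : Fact p.Prime := ⟨hp⟩
    obtain ⟨P⟩ := (inferInstance : Nonempty (Sylow p F))
    haveI hPn : (P : Subgroup F).Normal := inferInstance
    haveI : (P : Subgroup F).Characteristic := P.characteristic_of_normal hPn
    set P' : Subgroup H := (P : Subgroup F).map F.subtype with hP'
    haveI : P'.Normal := ConjAct.normal_of_characteristic_of_normal
    have hdis : Disjoint P' QH := by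
      have hP2 : IsPGroup p P' := P.2.map _
      exact IsPGroup.disjoint_of_ne p 2 hp2 P' QH hP2 hQp
    have hPQ : P' ≤ QH := le_trans (fun a ha => Subgroup.mem_centralizer_iff.2 fun b hb =>
      (Subgroup.commute_of_normal_of_disjoint P' QH inferInstance inferInstance hdis a b ha hb).symm.eq)
      centralizer_QH_le
    have hbot : P' = ⊥ := le_bot_iff.1 (hdis le_rfl hPQ)
    rw [hP', Subgroup.map_eq_bot_iff_of_injective _ F.subtype_injective] at hbot
    exact P.ne_bot_of_dvd_card (hFc ▸ dvd_mul_of_dvd_right hpm _) hbot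
  have hFQ : F ≤ QH := by
    rw [← ker_rhoH]
    let W : AddSubgroup V :=
      { carrier := {v | ∀ f ∈ F, ap (rhoH f) v = v}
        zero_mem' := fun f _ => ap_zero _
        add_mem' := fun {a b} ha hb f hf => by rw [ap_add, ha f hf, hb f hf]
        neg_mem' := fun {a} ha f hf => by rw [vneg]; exact ha f hf }
    have hW : ∀ (k : Fin 2) (v : V), v ∈ W → colMap k v ∈ W := by
      intro k v hv f hf
      set h : H := ⟨el (hm k), (hm_mem_Nz k).1⟩
      have e : colMap k v = ap (rhoH h) v := (act_hm k v).symm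
      rw [e, ← ap_mul, ← map_mul, show f * h = h * (h⁻¹ * f * h) by group, map_mul, ap_mul,
        hv _ (hFn.conj_mem' f hf h)]
    letI : MulAction F V :=
      { smul := fun f v => ap (rhoH f) v
        one_smul := fun v => by show ap (rhoH ((1 : F) : H)) v = v; simp [ap_one]
        mul_smul := fun f g v => by
          show ap (rhoH ((f * g : F) : H)) v = ap (rhoH f) (ap (rhoH g) v)
          rw [Subgroup.coe_mul, map_mul, ap_mul] }
    have hmod := hF2.card_modEq_card_fixedPoints V
    have h64 : Nat.card V = 64 := card_V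
    haveI : Nonempty (MulAction.fixedPoints F V) := ⟨⟨0, fun f => ap_zero _⟩⟩
    have hpos : 0 < Nat.card (MulAction.fixedPoints F V) := Nat.card_pos
    have h2 : 1 < Nat.card (MulAction.fixedPoints F V) := by
      have := hmod
      unfold Nat.ModEq at this
      omega
    obtain ⟨a, b, hab⟩ := (Finite.one_lt_card_iff_nontrivial.1 h2)
    have hex : ∃ v ∈ MulAction.fixedPoints F V, v ≠ 0 := by
      by_cases ha : (a : V) = 0
      · exact ⟨b, b.2, fun hb => hab (Subtype.ext (ha.trans hb.symm))⟩
      · exact ⟨a, a.2, ha⟩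
    obtain ⟨v, hv, hv0⟩ := hex
    have hall := eq_zero_or_all hW (v := v) (fun f hf => hv ⟨f, hf⟩) hv0
    intro f hf
    exact MonoidHom.mem_ker.2 (orth_ext fun u => hall u f hf)
  refine le_antisymm (sup_le ?_ hFQ) (hle.trans le_sup_right)
  refine le_trans ?_ centralizer_QH_le
  rw [← le_antisymm hFQ hle, ← Subgroup.commutator_eq_bot_iff_le_centralizer]
  exact CfsgLib.Cores.commutator_layer_fittingSubgroup

theorem exists_fused : ∃ g : Sx, (∃ hq : g * zS * g⁻¹ ∈ H, (⟨_, hq⟩ : H) ∈ QH) ∧ g * zS * g⁻¹ ≠ zS := by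
  obtain ⟨e, he⟩ := eOrZ_spec fuse_ok
  rw [wp_cons, wp_single, wp_single] at he
  have hg : el 9 * zS * (el 9)⁻¹ = X eV * zb e := by
    rw [show zS = el 6 from rfl, he, mul_inv_cancel_right]; rfl
  have hmem : el 9 * zS * (el 9)⁻¹ ∈ Q := hg ▸ ⟨eV, e, rfl⟩
  refine ⟨el 9, ⟨Q_le_Nz.trans inf_le_left hmem, hmem⟩, fun h => ?_⟩
  rw [hg] at h
  have h' : X eV * zb e = X 0 * zb true := by rw [h, X_zero, one_mul]; rfl
  exact absurd (X_unique h').1 (by decide)

end CfsgLib.SuzCo0.Cent
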