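import Cfsg.Agent.Lib.SuzCo0.CentData
import Cfsg.Agent.Lib.SuzCo0.Data
import Cfsg.Agent.Lib.J2Ico.SectionBound

/-!
A bound for the centraliser of a fixed-point-free element of order three and an involution: three base vectors
whose orbits are bounded by inner products, and twenty-four vectors determined by them.
-/

set_option autoImplicit false
set_option maxRecDepth 100000

namespace CfsgLib.SuzCo0.Cent

open Cfsg CfsgLib.Leech CfsgLib.Fischer2 CfsgLib.GolayStructure
open CfsgLib.J2Ico.Section (pack128 target128 dot_pack128)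
open CfsgLib.Golay (idx pt idx_pt pt_idx idx_lt)

/-- A vector of the base orbits, as a list. -/
def baseL (p : ℕ × ℕ) : List ℤ := (orbits.getD p.1 []).getD p.2 []

/-- The conditions of a class. -/
def condsOf (i : ℕ) : List ((ℕ × ℕ) × ℤ) := (classData.getD i (0, [])).2

/-- The number of vectors in a class. -/
def countOf (i : ℕ) : ℕ := (classData.getD i (0, [])).1

theorem orbits_ok : ((List.range 3).all fun j => (List.range 4).all fun k =>
    memTest (baseL (j, k)) && decide (dotL (baseL (j, k)) (baseL (j, k)) = 32) &&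
      decide (k % 2 = 0 → applyM xMat (baseL (j, k)) = (baseL (j, k + 1)).map (8 * ·)) &&
      decide (k < 2 → applyM tMat (baseL (j, k)) = (baseL (j, k + 2)).map (8 * ·))) = true := by
  decide +kernel

theorem conds_ok : ((List.range 2).all fun i => (condsOf i).all fun p =>
    decide (p.1.1 ≤ i) && decide (p.1.2 < 4) && decide (|p.2| ≤ 63) &&
      decide (dotL (baseL p.1) (baseL (i + 1, 0)) = p.2)) = true := by decide +kernel

theorem weights_ok : ((List.range 2).all fun i =>
    let r := classW.getD i ([], [], 0, 0)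
    decide (pack128 ((condsOf i).map fun p => baseL p.1) = r.1) &&
      decide (target128 ((condsOf i).map fun p => p.2) = r.2.2.1) &&
      decide (biased 4503599627370496 r.1 = r.2.1) && decide (r.1.length = 24) &&
      r.1.all (fun w => decide (|w| ≤ 4503599627370496)) &&
      decide (0 < 32 * 4503599627370496 + r.2.2.1) &&
      decide ((32 * 4503599627370496 + r.2.2.1).toNat = r.2.2.2)) = true := by decide +kernel

theorem count_ok0 : minCount 4503599627370496 (classW.getD 0 ([], [], 0, 0)).2.1
    (tally [(classW.getD 0 ([], [], 0, 0)).2.2.2]) = pack [countOf 0] := by decide +kernel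

theorem count_ok1 : minCount 4503599627370496 (classW.getD 1 ([], [], 0, 0)).2.1
    (tally [(classW.getD 1 ([], [], 0, 0)).2.2.2]) = pack [countOf 1] := by decide +kernel

theorem singles_ok : (decide (singles.length = 24) && decide (singleDots.length = 24) &&
    singleConds.all (fun p => decide (p.1 < 3) && decide (p.2 < 4)) &&
    (List.range 24).all fun s =>
      memTest (singles.getD s []) && decide (dotL (singles.getD s []) (singles.getD s []) = 32) &&
      decide (singleConds.map (fun p => dotL (baseL p) (singles.getD s [])) = singleDots.getD s []) &&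
      (singleDots.getD s []).all (fun t => decide (|t| ≤ 63))) = true := by decide +kernel

theorem singleW_ok : (decide (pack128 (singleConds.map baseL) = singleW) &&
    decide (singleDots.map target128 = singleT) && decide (biased 4503599627370496 singleW = singleWb) &&
    decide (singleW.length = 24) && singleW.all (fun w => decide (|w| ≤ 4503599627370496)) &&
    singleT.all (fun t => decide (0 < 32 * 4503599627370496 + t)) &&
    decide (singleT.map (fun t => (32 * 4503599627370496 + t).toNat) = singleTb)) = true := by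
  decide +kernel

theorem single_count : minCount 4503599627370496 singleWb (tally singleTb) =
    pack (List.replicate 24 1) := by decide +kernel

theorem span_ok : (decide (spanScale ≠ 0) && decide (spanMat.length = 24) &&
    (List.range 24).all fun p => (List.range 24).all fun q =>
      decide (((List.range 24).map fun k =>
        (spanMat.getD p []).getD k 0 * (singles.getD k []).getD q 0).sum =
          if p = q then spanScale else 0)) = true := by decide +kernel

/-- A vector of the base orbits. -/
def baseVec (p : ℕ × ℕ) : leechLattice :=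
  if h : memTest (baseL p) = true then ofList (baseL p) h else 0

/-- A vector determined by the base. -/
def singleVec (s : ℕ) : leechLattice :=
  if h : memTest (singles.getD s []) = true then ofList (singles.getD s []) h else 0

theorem baseVec_facts {p : ℕ × ℕ} (h1 : p.1 < 3) (h2 : p.2 < 4) :
    coordVec (baseVec p) = toVec (baseL p) ∧ (baseL p).length = 24 ∧
      sqNorm (toVec (baseL p)) = 32 := by
  obtain ⟨j, k⟩ := p
  have h := orbits_ok
  simp only [List.all_eq_true, List.mem_range, Bool.and_eq_true, decide_eq_true_eq] at h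
  obtain ⟨⟨⟨hm, hn⟩, -⟩, -⟩ := h j h1 k h2
  have hl : (baseL (j, k)).length = 24 := by
    simp only [memTest, Bool.and_eq_true, decide_eq_true_eq] at hm; exact hm.1
  refine ⟨by rw [baseVec, dif_pos hm, coordVec_ofList], hl, ?_⟩
  rw [← dotInt_self, dotInt_toVec hl hl, hn]

theorem singleVec_facts {s : ℕ} (hs : s < 24) :
    coordVec (singleVec s) = toVec (singles.getD s []) ∧ (singles.getD s []).length = 24 ∧
      sqNorm (toVec (singles.getD s [])) = 32 ∧
      singleConds.map (fun p => dotL (baseL p) (singles.getD s [])) = singleDots.getD s [] := by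
  have h := singles_ok
  simp only [List.all_eq_true, List.mem_range, Bool.and_eq_true, decide_eq_true_eq] at h
  obtain ⟨⟨⟨hm, hn⟩, hd⟩, -⟩ := h.2 s hs
  have hl : (singles.getD s []).length = 24 := by
    simp only [memTest, Bool.and_eq_true, decide_eq_true_eq] at hm; exact hm.1
  refine ⟨by rw [singleVec, dif_pos hm, coordVec_ofList], hl, ?_, hd⟩
  rw [← dotInt_self, dotInt_toVec hl hl, hn]

variable {X T : Co0} (hX : ∀ v : leechLattice, coordVec (X • v) = matAct xMat (coordVec v))
  (hT : ∀ v : leechLattice, coordVec (T • v) = matAct tMat (coordVec v))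

/-- The chain of stabilisers in the centraliser of the two elements. -/
def chain (X T : Co0) : ℕ → Subgroup Co0
  | 0 => Subgroup.centralizer {X, T}
  | i + 1 => chain X T i ⊓ MulAction.stabilizer Co0 (baseVec (i, 0))

theorem chain_comm : ∀ (i : ℕ) {g : Co0}, g ∈ chain X T i → g * X = X * g ∧ g * T = T * g
  | 0, g, hg =>
    ⟨(Subgroup.mem_centralizer_iff.1 hg X (Set.mem_insert _ _)).symm,
      (Subgroup.mem_centralizer_iff.1 hg T (Set.mem_insert_of_mem _ rfl)).symm⟩
  | i + 1, g, hg => chain_comm i hg.1

theorem chain_fix : ∀ (i : ℕ) {g : Co0}, g ∈ chain X T i → ∀ j < i,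
    g • baseVec (j, 0) = baseVec (j, 0)
  | 0, _, _, j, hj => absurd hj (Nat.not_lt_zero j)
  | i + 1, g, hg, j, hj => by
    rcases Nat.lt_succ_iff_lt_or_eq.1 hj with h | h
    · exact chain_fix i hg.1 j h
    · exact h ▸ MulAction.mem_stabilizer_iff.1 hg.2

theorem smul_baseVec_of {M : List (List ℤ)} {Y : Co0}
    (hY : ∀ v : leechLattice, coordVec (Y • v) = matAct M (coordVec v))
    (hs : M.length = 24 ∧ ∀ r ∈ M, r.length = 24) {p q : ℕ × ℕ} (hp : p.1 < 3 ∧ p.2 < 4)
    (hq : q.1 < 3 ∧ q.2 < 4) (hx : applyM M (baseL p) = (baseL q).map (8 * ·)) :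
    Y • baseVec p = baseVec q := by
  obtain ⟨c1, l1, -⟩ := baseVec_facts (p := p) hp.1 hp.2
  obtain ⟨c2, l2, -⟩ := baseVec_facts (p := q) hq.1 hq.2
  refine Subtype.ext ?_
  show coordVec (Y • baseVec p) = coordVec (baseVec q)
  rw [hY, c1, c2]
  funext e
  rw [matAct, matApply_toVec hs.1 hs.2 l1, hx, toVec, toVec,
    List.getD_eq_getElem _ _ (by simp [l2, idx_lt]), List.getD_eq_getElem _ _ (by simp [l2, idx_lt]),
    List.getElem_map]
  omega

include hX hT

theorem fix_orbit {i j : ℕ} {g : Co0} (hg : g ∈ chain X T i) (hj : j < i) (hj3 : j < 3) :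
    ∀ k < 4, g • baseVec (j, k) = baseVec (j, k) := by
  have h := orbits_ok
  simp only [List.all_eq_true, List.mem_range, Bool.and_eq_true, decide_eq_true_eq] at h
  have sx : xMat.length = 24 ∧ ∀ r ∈ xMat, r.length = 24 := by decide +kernel
  have st : tMat.length = 24 ∧ ∀ r ∈ tMat, r.length = 24 := by decide +kernel
  have h0 := chain_fix i hg j hj
  obtain ⟨cx, ct⟩ := chain_comm i hg
  have e1 : X • baseVec (j, 0) = baseVec (j, 1) := smul_baseVec_of hX sx ⟨hj3, by norm_num⟩
    ⟨hj3, by norm_num⟩ ((h j hj3 0 (by norm_num)).1.2 rfl)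
  have h1 : g • baseVec (j, 1) = baseVec (j, 1) := by rw [← e1, ← mul_smul, cx, mul_smul, h0]
  have e2 : T • baseVec (j, 0) = baseVec (j, 2) := smul_baseVec_of hT st ⟨hj3, by norm_num⟩
    ⟨hj3, by norm_num⟩ ((h j hj3 0 (by norm_num)).2 (by norm_num))
  have e3 : T • baseVec (j, 1) = baseVec (j, 3) := smul_baseVec_of hT st ⟨hj3, by norm_num⟩
    ⟨hj3, by norm_num⟩ ((h j hj3 1 (by norm_num)).2 (by norm_num))
  intro k hk
  interval_cases k
  · exact h0
  · exact h1
  · rw [← e2, ← mul_smul, ct, mul_smul, h0]
  · rw [← e3, ← mul_smul, ct, mul_smul, h1]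

/-- The class containing the next base vector. -/
def classSet (i : ℕ) : Set leechLattice :=
  {y | sqNorm (coordVec y) = 32 ∧
    ∀ p ∈ condsOf i, dotInt (coordVec (baseVec p.1)) (coordVec y) = p.2}

omit hX hT in
theorem ncard_classSet {i : ℕ} (hi : i < 2) : (classSet i).ncard = countOf i := by
  have hc := conds_ok
  simp only [List.all_eq_true, List.mem_range, Bool.and_eq_true, decide_eq_true_eq] at hc
  have hw := weights_ok
  simp only [List.all_eq_true, List.mem_range, Bool.and_eq_true, decide_eq_true_eq] at hw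
  obtain ⟨⟨⟨⟨⟨⟨hW, hT⟩, hWb⟩, hl⟩, hB⟩, hpos⟩, htb⟩ := hw i hi
  set r := classW.getD i ([], [], 0, 0) with hr
  have hcount : minCount 4503599627370496 r.2.1 (tally [r.2.2.2]) = pack [countOf i] := by
    rw [hr]
    interval_cases i
    exacts [count_ok0, count_ok1]
  have hsmall : countOf i < 1048576 := by
    interval_cases i <;> decide +kernel
  have h := ncard_dots (B := 4503599627370496) (W := r.1) (Wb := r.2.1) hWb hl hB [r.2.2.1]
    (by simpa using hpos) (tb := [r.2.2.2]) (by simpa using htb) [countOf i] rfl
    (by simpa using hsmall) hcount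
  simp only [List.map_cons, List.map_nil, List.cons.injEq, and_true] at h
  rw [← h, ncard_mem_sep fun x => sqNorm x = 32 ∧ dotInt (toVec r.1) x = r.2.2.1]
  congr 1
  ext y
  refine and_congr_right fun hy => ?_
  have key := dot_pack128 hy ((condsOf i).map fun p => (baseL p.1, p.2)) (by
    intro q hq
    obtain ⟨p, hp, rfl⟩ := List.mem_map.1 hq
    obtain ⟨⟨⟨a, b⟩, c⟩, -⟩ := hc i hi p hp
    obtain ⟨-, l, n⟩ := baseVec_facts (p := p.1) (by omega) b
    exact ⟨l, n, c⟩)
  rw [List.map_map, List.map_map] at key
  simp only [Function.comp_def] at key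
  rw [hW, hT] at key
  rw [key, List.forall_mem_map]
  refine forall₂_congr fun p hp => ?_
  obtain ⟨⟨⟨a, b⟩, -⟩, -⟩ := hc i hi p hp
  rw [(baseVec_facts (p := p.1) (by omega) b).1]

theorem orbit_subset {i : ℕ} (hi : i < 2) :
    orbitSet (chain X T (i + 1)) (baseVec (i + 1, 0)) ⊆ classSet i := by
  rintro y ⟨g, hg, rfl⟩
  have hc := conds_ok
  simp only [List.all_eq_true, List.mem_range, Bool.and_eq_true, decide_eq_true_eq] at hc
  obtain ⟨c0, l0, n0⟩ := baseVec_facts (p := (i + 1, 0)) (by omega) (by norm_num)
  refine ⟨(sqNorm_smul g _).trans (by rw [← n0, ← c0]), fun p hp => ?_⟩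
  obtain ⟨⟨⟨a, b⟩, -⟩, d⟩ := hc i hi p hp
  obtain ⟨⟨j, k⟩, t⟩ := p
  dsimp only at a b d ⊢
  obtain ⟨c1, l1, -⟩ := baseVec_facts (p := (j, k)) (by omega) b
  have hf := fix_orbit hX hT hg (show j < i + 1 by omega) (by omega) k b
  conv_lhs => rw [← hf]
  show dotInt ((g • baseVec (j, k) : leechLattice) : GolayPt → ℤ)
    ((g • baseVec (i + 1, 0) : leechLattice) : GolayPt → ℤ) = t
  rw [dotInt_smul]
  show dotInt (coordVec (baseVec (j, k))) (coordVec (baseVec (i + 1, 0))) = t
  rw [c1, c0, dotInt_toVec l1 l0, d]

omit hX hT in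
/-- The vectors with the same inner products as a determined vector. -/
theorem single_unique {s : ℕ} (hs : s < 24) {y : leechLattice} (hy : sqNorm (coordVec y) = 32)
    (hd : singleConds.map (fun p => dotInt (coordVec (baseVec p)) (coordVec y)) = singleDots.getD s []) :
    y = singleVec s := by
  have h := singleW_ok
  simp only [Bool.and_eq_true, decide_eq_true_eq, List.all_eq_true] at h
  obtain ⟨⟨⟨⟨⟨⟨hW, hT⟩, hWb⟩, hl⟩, hB⟩, hpos⟩, htb⟩ := h
  have h := singles_ok
  simp only [List.all_eq_true, List.mem_range, Bool.and_eq_true, decide_eq_true_eq] at h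
  obtain ⟨⟨⟨-, hlen⟩, hsc⟩, hall⟩ := h
  obtain ⟨⟨⟨-, -⟩, hds⟩, hb⟩ := hall s hs
  have hn := ncard_dots (B := 4503599627370496) (W := singleW) (Wb := singleWb) hWb hl hB singleT
    hpos (tb := singleTb) htb (List.replicate 24 1)
    (by rw [List.length_replicate, ← hT, List.length_map, hlen])
    (fun c hc => by rw [List.eq_of_mem_replicate hc]; norm_num) single_count
  have hts : s < singleT.length := by rw [← hT, List.length_map, hlen]; exact hs
  have hone : {x : GolayPt → ℤ | x ∈ leechLattice ∧ sqNorm x = 32 ∧
      dotInt (toVec singleW) x = target128 (singleDots.getD s [])}.ncard = 1 := by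
    have := List.getElem_of_eq hn (i := s) (by simpa using hts)
    rw [List.getElem_map, List.getElem_replicate] at this
    rw [← this]
    congr 1
    ext x
    have e : singleT[s] = target128 (singleDots.getD s []) := by
      simp only [← hT, List.getElem_map]
      rw [List.getD_eq_getElem _ _ (by rw [hlen]; exact hs)]
    rw [e]
  obtain ⟨a, ha⟩ := Set.ncard_eq_one.1 hone
  have mem : ∀ z : leechLattice, sqNorm (coordVec z) = 32 →
      singleConds.map (fun p => dotInt (coordVec (baseVec p)) (coordVec z)) = singleDots.getD s [] →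
      coordVec z = a := by
    intro z hz hzd
    have hmem : coordVec z ∈ {x : GolayPt → ℤ | x ∈ leechLattice ∧ sqNorm x = 32 ∧
      dotInt (toVec singleW) x = target128 (singleDots.getD s [])} := by
      refine ⟨z.2, hz, ?_⟩
      have key := dot_pack128 hz (singleConds.map fun p => (baseL p, dotInt (coordVec (baseVec p)) (coordVec z)))
        (by
          intro q hq
          obtain ⟨p, hp, rfl⟩ := List.mem_map.1 hq
          obtain ⟨a1, a2⟩ := hsc p hp
          obtain ⟨-, l, n⟩ := baseVec_facts (p := p) a1 a2
          exact ⟨l, n, hb _ (hzd ▸ List.mem_map_of_mem hp)⟩)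
      rw [List.map_map, List.map_map] at key
      simp only [Function.comp_def] at key
      rw [hW, hzd] at key
      refine key.2 ?_
      rw [List.forall_mem_map]
      intro p hp
      obtain ⟨a1, a2⟩ := hsc p hp
      rw [(baseVec_facts (p := p) a1 a2).1]
    rw [ha] at hmem
    exact hmem
  obtain ⟨cs, ls, ns, -⟩ := singleVec_facts hs
  refine Subtype.ext ((mem y hy hd).trans (mem _ (by rw [cs, ns]) ?_).symm)
  rw [← hds]
  refine List.map_congr_left fun p hp => ?_
  obtain ⟨a1, a2⟩ := hsc p hp
  obtain ⟨c1, l1, -⟩ := baseVec_facts (p := p) a1 a2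
  rw [c1, cs, dotInt_toVec l1 ls]

theorem fix_single {g : Co0} (hg : g ∈ chain X T 3) {s : ℕ} (hs : s < 24) :
    g • singleVec s = singleVec s := by
  obtain ⟨cs, ls, ns, hd⟩ := singleVec_facts hs
  refine single_unique hs ((sqNorm_smul g _).trans (by rw [← ns, ← cs])) ?_
  have h := singles_ok
  simp only [List.all_eq_true, List.mem_range, Bool.and_eq_true, decide_eq_true_eq] at h
  rw [← hd]
  refine List.map_congr_left fun p hp => ?_
  obtain ⟨a1, a2⟩ := h.1.2 p hp
  obtain ⟨c1, l1, -⟩ := baseVec_facts (p := p) a1 a2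
  have hf := fix_orbit hX hT hg (show p.1 < 3 from a1) a1 p.2 a2
  conv_lhs => rw [← hf]
  show dotInt ((g • baseVec p : leechLattice) : GolayPt → ℤ)
    ((g • singleVec s : leechLattice) : GolayPt → ℤ) = _
  rw [dotInt_smul]
  show dotInt (coordVec (baseVec p)) (coordVec (singleVec s)) = _
  rw [c1, cs, dotInt_toVec l1 ls]

theorem chain_three : chain X T 3 = ⊥ := by
  rw [eq_bot_iff]
  intro g hg
  rw [Subgroup.mem_bot]
  have hs := span_ok
  simp only [List.all_eq_true, List.mem_range, Bool.and_eq_true, decide_eq_true_eq] at hs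
  obtain ⟨⟨hne, -⟩, hspan⟩ := hs
  refine Subtype.ext (Equiv.ext fun v => ?_)
  show g • v = v
  set c : ℕ → ℤ := fun k => ∑ p, coordVec v p * (spanMat.getD (idx p) []).getD k 0 with hc
  have e : spanScale • v = ∑ k ∈ Finset.range 24, c k • singleVec k := by
    refine Subtype.ext ?_
    rw [AddSubgroupClass.coe_zsmul, AddSubmonoidClass.coe_finsetSum]
    funext q
    rw [Finset.sum_apply]
    have hb : ∀ k ∈ Finset.range 24,
        (↑(c k • singleVec k) : GolayPt → ℤ) q = c k * (singles.getD k []).getD (idx q) 0 := by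
      intro k hk
      rw [Finset.mem_range] at hk
      rw [AddSubgroupClass.coe_zsmul, Pi.smul_apply, smul_eq_mul,
        show ((singleVec k : leechLattice) : GolayPt → ℤ) = toVec (singles.getD k []) from
          (singleVec_facts hk).1]
      rfl
    rw [Finset.sum_congr rfl hb, Pi.smul_apply, smul_eq_mul]
    simp only [hc, Finset.sum_mul]
    rw [Finset.sum_comm]
    have hp : ∀ p, ∑ k ∈ Finset.range 24, coordVec v p * (spanMat.getD (idx p) []).getD k 0 *
        (singles.getD k []).getD (idx q) 0 = if p = q then spanScale * coordVec v p else 0 := by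
      intro p
      have h := hspan (idx p) (idx_lt p) (idx q) (idx_lt q)
      rw [← List.sum_toFinset _ List.nodup_range, List.toFinset_range] at h
      rw [Finset.sum_congr rfl fun k _ => mul_assoc _ _ _, ← Finset.mul_sum, h]
      simp only [CfsgLib.Golay.idx_injective.eq_iff]
      split_ifs with hpq
      · ring
      · ring
    rw [Finset.sum_congr rfl fun p _ => hp p, Finset.sum_ite_eq', if_pos (Finset.mem_univ q)]
  have hg' : g • (spanScale • v) = spanScale • v := by
    rw [e]
    show toAddEquiv g (∑ k ∈ Finset.range 24, c k • singleVec k) = _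
    rw [map_sum]
    refine Finset.sum_congr rfl fun k hk => ?_
    rw [map_zsmul]
    exact congrArg (c k • ·) (fix_single hX hT hg (Finset.mem_range.1 hk))
  rw [smul_zsmul_co0] at hg'
  refine Subtype.ext (funext fun p => ?_)
  have := congrFun (congrArg Subtype.val hg') p
  simp only [AddSubgroupClass.coe_zsmul, Pi.smul_apply, smul_eq_mul] at this
  exact mul_left_cancel₀ hne this

/-- The centraliser is no larger than the product of the class sizes. -/
theorem natCard_centralizer_le :
    Nat.card (Subgroup.centralizer ({X, T} : Set Co0)) ≤ 31842720 := by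
  haveI : Finite Co0 := CfsgLib.Leech.finite_Co0
  have hlayer : {v : leechLattice | sqNorm (coordVec v) = 32}.ncard = 196560 := by
    rw [← ncard_layer_32]
    exact (ncard_mem_sep fun x => sqNorm x = 32).symm
  have h0 : (orbitSet (chain X T 0) (baseVec (0, 0))).ncard ≤ 196560 := by
    rw [← hlayer]
    refine Set.ncard_le_ncard (fun y hy => ?_) (Set.finite_of_ncard_pos (by rw [hlayer]; norm_num))
    obtain ⟨g, -, rfl⟩ := hy
    obtain ⟨c, -, n⟩ := baseVec_facts (p := (0, 0)) (by norm_num) (by norm_num)
    exact (sqNorm_smul g _).trans (by rw [← n, ← c])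
  have step : ∀ i < 2, Nat.card (chain X T (i + 1)) ≤ countOf i * Nat.card (chain X T (i + 2)) := by
    intro i hi
    rw [← ncard_orbitSet_mul (chain X T (i + 1)) (baseVec (i + 1, 0))]
    have hn := ncard_classSet hi
    have hpos : 0 < countOf i := by interval_cases i <;> decide +kernel
    exact Nat.mul_le_mul_right _ (hn ▸ Set.ncard_le_ncard (orbit_subset hX hT hi)
      (Set.finite_of_ncard_pos (by rw [hn]; exact hpos)))
  have s := ncard_orbitSet_mul (chain X T 0) (baseVec (0, 0))
  have s1 := step 0 (by norm_num)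
  have s2 := step 1 (by norm_num)
  have e : countOf 0 = 81 ∧ countOf 1 = 2 := by decide +kernel
  have e3 : Nat.card (chain X T (1 + 2)) = 1 := by
    rw [show (1 : ℕ) + 2 = 3 from rfl, chain_three hX hT, Subgroup.card_bot]
  obtain ⟨a0, a1⟩ := e
  rw [a0] at s1; rw [a1, e3] at s2
  simp only [Nat.reduceAdd] at s s1 s2
  calc Nat.card (Subgroup.centralizer ({X, T} : Set Co0))
      = (orbitSet (chain X T 0) (baseVec (0, 0))).ncard * Nat.card (chain X T 1) := s.symm
    _ ≤ 196560 * Nat.card (chain X T 1) := Nat.mul_le_mul_right _ h0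
    _ ≤ 31842720 := by omega

end CfsgLib.SuzCo0.Cent
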