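import Cfsg.Agent.Lib.SuzCo0.CentWords
import Cfsg.Agent.Lib.SuzukiType.Space
import Cfsg.Agent.Lib.SuzCo0.ReachData

/-!
The relations in the centraliser of an involution, up to scalars, and the orbits of the two further
elements on coordinates.
-/

set_option autoImplicit false
set_option maxRecDepth 100000
set_option synthInstance.maxSize 2000
set_option Elab.async false

namespace CfsgLib.SuzCo0.Cent

open Cfsg CfsgLib.Leech CfsgLib.SuzukiType

/-- The coordinate of a generator. -/
def cI : Fin 6 → Ix
  | ⟨0, _⟩ => .inl (.inl 0)
  | ⟨1, _⟩ => .inl (.inr 0)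
  | ⟨2, _⟩ => .inl (.inl 1)
  | ⟨3, _⟩ => .inl (.inr 1)
  | ⟨4, _⟩ => .inr 0
  | ⟨_, _⟩ => .inr 1

/-- The basis vector of a generator. -/
def bI (i : Fin 6) : V := basisList.getD i.1 0

/-- The letter of a generator. -/
def em (i : Fin 6) : Fin 12 := ⟨i.1, by omega⟩

/-- The generators in the normal form of a coordinate vector. -/
def xiIdx (v : V) : List (Fin 6) := (List.finRange 6).filter fun i => decide (v (cI i) = 1)

/-- The normal form of a coordinate vector. -/
def xiWord (v : V) : List (Fin 12) := (xiIdx v).map em

theorem xiIdx_sum : ∀ v : V, ((xiIdx v).map bI).sum = v := by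
  rw [forall_vec]; decide +kernel

theorem xiIdx_bI : ∀ i : Fin 6, xiIdx (bI i) = [i] := by decide +kernel

theorem xiIdx_zero : xiIdx (0 : V) = [] := by decide +kernel

/-- A vector from a list of six coordinates. -/
def vecL (l : List ℕ) : V :=
  vec (l.getD 0 0) (l.getD 2 0) (l.getD 1 0) (l.getD 3 0) (l.getD 4 0) (l.getD 5 0)

/-- The image of a basis vector under one of the two further elements. -/
def colV (k : Fin 2) (i : Fin 6) : V := vecL ((rhoCols.getD k.1 []).getD i.1 [])

/-- The letter of one of the two further elements. -/
def hm (k : Fin 2) : Fin 12 := ⟨7 + k.1, by omega⟩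

/-- Equal up to a scalar and possibly the involution. -/
noncomputable def eOrZ (u v w : List (Fin 12)) : Bool :=
  eEquiv u (v ++ w) || eEquiv u (v ++ 6 :: w)

theorem x_comm : ((List.finRange 12).all fun i => eSame [i, 10] [10, i]) = true := by decide +kernel

theorem t_ok : (eSame [6, 6] [] && !eEquiv [6] []) = true := by decide +kernel

theorem z_comm : ((List.finRange 9).all fun i =>
    eEquiv [6, i.castLE (by norm_num)] [i.castLE (by norm_num), 6]) = true := by decide +kernel

theorem right_ok : ∀ v : V, ((List.finRange 6).all fun i =>
    eOrZ (xiWord v ++ [em i]) (xiWord (v + bI i)) []) = true := by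
  rw [forall_vec]; decide +kernel

theorem sq_ok : ∀ v : V,
    eEquiv (xiWord v ++ xiWord v) (bif decide (q v = 0) then [] else [6]) = true := by
  rw [forall_vec]; decide +kernel

theorem ne_ok : ∀ v : V, (decide (v = 0) ||
    (!eEquiv (xiWord v) [] && !eEquiv (xiWord v) [6] &&
      (List.finRange 6).any fun i => !eEquiv (xiWord v ++ [em i]) (em i :: xiWord v))) = true := by
  rw [forall_vec]; decide +kernel

theorem conj_ok : ((List.finRange 2).all fun k => (List.finRange 6).all fun i =>
    eOrZ [hm k, em i] (xiWord (colV k i)) [hm k]) = true := by decide +kernel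

theorem fuse_ok : eOrZ [9, 6] (xiWord eV) [9] = true := by decide +kernel

/-- The linear map with the given columns. -/
def colMap (k : Fin 2) (v : V) : V := ((xiIdx v).map (colV k)).sum

/-- The action of a word in the two further elements. -/
def wAct (w : List (Fin 2)) (v : V) : V := w.foldr colMap v

/-- The base of the chain. -/
def cBase : List V := [eV, fV, e2V, f2V, z1V]

/-- The transversal at a level. -/
def transv (l : ℕ) : List (V × List (Fin 2)) :=
  (chainWords.getD l []).map fun p => (vecL p.1, p.2.map (Fin.ofNat 2))

theorem transv_ok : ((List.range 5).all fun l =>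
    decide ((transv l).map Prod.fst).Nodup && decide ((transv l).length = [27, 16, 5, 4, 3].getD l 0) &&
      (transv l).all fun p => decide (wAct p.2 (cBase.getD l 0) = p.1) &&
        (List.range l).all fun m => decide (wAct p.2 (cBase.getD m 0) = cBase.getD m 0)) = true := by
  decide +kernel

/-- Words taking a vector to summands of the first basis vector. -/
def reachOf (v : V) : List (List (Fin 2)) :=
  ((reachWords.find? fun p => decide (vecL p.1 = v)).elim [] Prod.snd).map fun w => w.map (Fin.ofNat 2)

theorem reach_ok : ∀ v : V, (decide (v = 0) ||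
    decide (((reachOf v).map fun w => wAct w v).sum = eV)) = true := by
  rw [forall_vec]; decide +kernel

theorem basis_from_singular : ([fV, e2V, f2V].all fun b => decide (q b = 0 ∧ b ≠ 0)) &&
    decide (q (z1V + eV + fV) = 0 ∧ z1V + eV + fV ≠ 0) &&
    decide (q (z2V + eV + fV) = 0 ∧ z2V + eV + fV ≠ 0) = true := by decide +kernel

theorem transv_singular : ∀ v : V, (decide (v = 0) || decide (q v = 1) ||
    ((transv 0).map Prod.fst).any fun u => decide (u = v)) = true := by
  rw [forall_vec]; decide +kernel

theorem scalar_sq_ok : (eScalars.all fun w =>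
    !eSame (w ++ w) [] || decide (w = []) || decide (w = [11])) = true := by decide +kernel

end CfsgLib.SuzCo0.Cent
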