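import Cfsg.Agent.Lib.SuzCo0.CentWords
import Cfsg.Agent.Lib.SuzCo0.SepData

/-!
The involution is not conjugate to its negative: it fixes more vectors of norm 32 than there are
vectors of norm 32 orthogonal to nine fixed ones.
-/

set_option autoImplicit false
set_option maxRecDepth 100000
set_option Elab.async false

namespace CfsgLib.SuzCo0.Cent

open Cfsg CfsgLib.Leech CfsgLib.Fischer2
open CfsgLib.J2Ico.Section (pack128 target128 dot_pack128)
open CfsgLib.Golay (idx idx_lt)

theorem sep_weights : (decide (pack128 sepVecs = sepW) && decide (biased 1152921504606846976 sepW = sepWb) &&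
    decide (sepW.length = 24) && sepW.all (fun w => decide (|w| ≤ 1152921504606846976)) &&
    decide (target128 (sepVecs.map fun _ => (0 : ℤ)) = 0)) = true := by decide +kernel

theorem sep_count : minCount 1152921504606846976 sepWb (tally [36893488147419103232]) =
    pack [sepCount] := by decide +kernel

theorem sep_vecs : ((sepVecs ++ fixedVecs).all fun L =>
    memTest L && decide (dotL L L = 32) && decide (ofVec (toVec L) = L) &&
      Nat.beq (eKey [6] (keyL L)) (keyL L)) = true := by decide +kernel

theorem fixed_nodup : (decide (fixedVecs.map keyL).Nodup && decide (sepCount < fixedVecs.length)) = true := by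
  decide +kernel

theorem fixed_spec {L : List ℤ} (hL : L ∈ sepVecs ++ fixedVecs) :
    ∃ v : leechLattice, coordVec v = toVec L ∧ L.length = 24 ∧ sqNorm (toVec L) = 32 ∧
      key v = keyL L ∧ eElem 6 • v = v := by
  have h := sep_vecs
  simp only [List.all_eq_true, Bool.and_eq_true, decide_eq_true_eq] at h
  obtain ⟨⟨⟨hm, hn⟩, hrev⟩, hk⟩ := h L hL
  have hl : L.length = 24 := by
    simp only [memTest, Bool.and_eq_true, decide_eq_true_eq] at hm; exact hm.1
  have hn' : sqNorm (toVec L) = 32 := by rw [← dotInt_self, dotInt_toVec hl hl, hn]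
  have hnv : sqNorm (coordVec (ofList L hm)) = 32 := by rw [coordVec_ofList, hn']
  have hkey : key (ofList L hm) = keyL L := by rw [key, coordVec_ofList, hrev]
  refine ⟨ofList L hm, coordVec_ofList L hm, hl, hn', hkey, key_inj ((sqNorm_smul _ _).trans hnv) hnv ?_⟩
  have hspec := eKey_spec hnv [6]
  simp only [List.map_cons, List.map_nil, List.prod_singleton] at hspec
  rw [← hspec, hkey]
  exact Nat.eq_of_beq_eq_true hk

theorem not_conj_neg (g : Co0) : g * eElem 6 * g⁻¹ ≠ negAut * eElem 6 := by
  intro hg
  have hgv : ∀ v : leechLattice, eElem 6 • v = v → eElem 6 • (g • v) = -(g • v) := by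
    intro v hv
    have h1 : (g * eElem 6 * g⁻¹) • (g • v) = g • v := by
      rw [← mul_smul, inv_mul_cancel_right, mul_smul, hv]
    rw [hg, mul_smul, negAut_apply] at h1
    exact neg_eq_iff_eq_neg.1 h1
  have hw := sep_weights
  simp only [Bool.and_eq_true, decide_eq_true_eq, List.all_eq_true] at hw
  obtain ⟨⟨⟨⟨hW, hWb⟩, hl⟩, hB⟩, hT⟩ := hw
  have hc := ncard_dots (B := 1152921504606846976) (W := sepW) (Wb := sepWb) hWb hl hB [0]
    (by simp) (tb := [36893488147419103232]) (by decide +kernel) [sepCount] rfl
    (by decide +kernel) sep_count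
  simp only [List.map_cons, List.map_nil, List.cons.injEq, and_true] at hc
  set P := {x : GolayPt → ℤ | x ∈ leechLattice ∧ sqNorm x = 32 ∧ dotInt (toVec sepW) x = 0} with hP
  have hPfin : P.Finite := (layer_finite 32).subset fun x hx => ⟨hx.1, hx.2.1⟩
  choose! f hf using fun L (hL : L ∈ fixedVecs) => fixed_spec (List.mem_append_right sepVecs hL)
  have hnd := fixed_nodup
  simp only [Bool.and_eq_true, decide_eq_true_eq] at hnd
  have hsub : ∀ L ∈ fixedVecs, coordVec (g • f L) ∈ P := by
    intro L hL
    obtain ⟨hc1, -, hn1, -, hfix⟩ := hf L hL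
    have hn2 : sqNorm (coordVec (g • f L)) = 32 :=
      (sqNorm_smul g _).trans ((congrArg sqNorm hc1).trans hn1)
    refine ⟨(g • f L).2, hn2, ?_⟩
    have key := dot_pack128 hn2 (sepVecs.map fun M => (M, (0 : ℤ))) (by
      intro q hq
      obtain ⟨M, hM, rfl⟩ := List.mem_map.1 hq
      obtain ⟨w, -, lw, nw, -, -⟩ := fixed_spec (List.mem_append_left fixedVecs hM)
      exact ⟨lw, nw, by simp⟩)
    rw [List.map_map, List.map_map] at key
    simp only [Function.comp_def, List.map_id'] at key
    rw [hW, hT] at key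
    refine key.2 ?_
    rw [List.forall_mem_map]
    intro M hM
    obtain ⟨w, cw, -, -, -, hwfix⟩ := fixed_spec (List.mem_append_left fixedVecs hM)
    have e : dotInt (coordVec (eElem 6 • w)) (coordVec (eElem 6 • (g • f L))) =
        dotInt (coordVec w) (coordVec (g • f L)) := dotInt_smul _ _ _
    rw [hwfix, hgv _ hfix] at e
    rw [← cw]
    have e2 : dotInt (coordVec w) (coordVec (-(g • f L))) = -dotInt (coordVec w) (coordVec (g • f L)) :=
      dotInt_neg_right _ _
    rw [e2] at e
    show dotInt (coordVec w) (coordVec (g • f L)) = 0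
    omega
  have hinj : Set.InjOn (fun L => coordVec (g • f L)) {L | L ∈ fixedVecs} := by
    intro L hL M hM e
    have e' : f L = f M := MulAction.injective g (Subtype.ext e)
    obtain ⟨-, -, -, kL, -⟩ := hf L hL
    obtain ⟨-, -, -, kM, -⟩ := hf M hM
    exact List.inj_on_of_nodup_map hnd.1 hL hM (by rw [← kL, ← kM, e'])
  have hle : ({L | L ∈ fixedVecs} : Set (List ℤ)).ncard ≤ P.ncard :=
    Set.ncard_le_ncard_of_injOn _ (fun L hL => hsub L hL) hinj hPfin
  have hlen : ({L | L ∈ fixedVecs} : Set (List ℤ)).ncard = fixedVecs.length := by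
    rw [show ({L | L ∈ fixedVecs} : Set (List ℤ)) = ↑fixedVecs.toFinset by ext; simp,
      Set.ncard_coe_finset, List.toFinset_card_of_nodup (List.Nodup.of_map _ hnd.1)]
  rw [hc, hlen] at hle
  omega

end CfsgLib.SuzCo0.Cent
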