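import Cfsg.Agent.Lib.SuzCo0.Section
import Cfsg.Agent.Lib.SuzCo0.CentBound
import Cfsg.Agent.Lib.SuzCo0.CentChecks
import Cfsg.Agent.Lib.SuzCo0.Separate
import Cfsg.Agent.Lib.ClassicalForms.Common

/-!
The centraliser of an involution in the section: a normal subgroup of order 128 with coordinates and
the action on them, which is the commutator subgroup of the orthogonal group.
-/

set_option autoImplicit false
set_option maxRecDepth 100000
set_option synthInstance.maxSize 2000

namespace CfsgLib.SuzCo0.Cent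

open Cfsg CfsgLib.Leech CfsgLib.SuzukiType CfsgLib.ClassicalForms

/-- The section. -/
abbrev Sx : Type := ↥(Subgroup.centralizer (aGroup : Set Co0)) ⧸ modGroup

instance : Finite Sx :=
  haveI : Finite Co0 := CfsgLib.Leech.finite_Co0
  inferInstance

theorem eElem_mem (i : Fin 12) : eElem i ∈ Subgroup.centralizer (aGroup : Set Co0) := by
  rw [centralizer_aGroup, Subgroup.mem_centralizer_singleton_iff]
  have h := x_comm
  simp only [List.all_eq_true] at h
  have e := eq_of_eSame (h i (List.mem_finRange i))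
  simpa [eElem_ten] using e

/-- A letter in the section. -/
noncomputable def el (i : Fin 12) : Sx := QuotientGroup.mk' modGroup ⟨eElem i, eElem_mem i⟩

/-- A word in the section. -/
noncomputable def wp (u : List (Fin 12)) : Sx := (u.map el).prod

theorem wp_nil : wp [] = 1 := rfl

theorem wp_cons (i : Fin 12) (u : List (Fin 12)) : wp (i :: u) = el i * wp u := by simp [wp]

theorem wp_append (u v : List (Fin 12)) : wp (u ++ v) = wp u * wp v := by simp [wp]

theorem wp_single (i : Fin 12) : wp [i] = el i := by simp [wp]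

theorem prod_mem (u : List (Fin 12)) :
    (u.map eElem).prod ∈ Subgroup.centralizer (aGroup : Set Co0) :=
  list_prod_mem fun g hg => by
    obtain ⟨i, -, rfl⟩ := List.mem_map.1 hg
    exact eElem_mem i

theorem wp_eq_mk (u : List (Fin 12)) : wp u = QuotientGroup.mk' modGroup ⟨_, prod_mem u⟩ := by
  induction u with
  | nil => exact (map_one (QuotientGroup.mk' modGroup)).symm
  | cons i u ih =>
    rw [wp_cons, ih, el, ← map_mul]
    congr 1

theorem scalar_mem {w : List (Fin 12)} (hw : w ∈ eScalars) :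
    (w.map eElem).prod ∈ aGroup ⊔ Subgroup.center Co0 := by
  refine list_prod_mem fun g hg => ?_
  obtain ⟨i, hi, rfl⟩ := List.mem_map.1 hg
  have hc : ∀ w ∈ eScalars, ∀ i ∈ w, i = 10 ∨ i = 11 := by decide
  rcases hc w hw i hi with rfl | rfl
  · exact Subgroup.mem_sup_left (eElem_ten ▸ Subgroup.mem_zpowers _)
  · exact Subgroup.mem_sup_right (eElem_eleven ▸ negAut_mem_center)

theorem exists_scalar {n : Co0} (hn : n ∈ aGroup ⊔ Subgroup.center Co0) :
    ∃ w ∈ eScalars, (w.map eElem).prod = n := by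
  obtain ⟨u, hu, z, hz, rfl⟩ := Subgroup.mem_sup_of_normal_right.1 hn
  obtain ⟨k, hk⟩ := Subgroup.mem_zpowers_iff.1 hu
  have hku : u = xElem ^ (k % 3).toNat := by
    rw [← hk, ← zpow_natCast, Int.toNat_of_nonneg (Int.emod_nonneg _ (by norm_num)),
      ← zpow_mod_orderOf xElem k, orderOf_xElem]
    rfl
  have hlt : (k % 3).toNat < 3 := by omega
  set m := (k % 3).toNat
  rcases CfsgLib.Fischer2.center_co0 hz with rfl | rfl
  · refine ⟨List.replicate m 10, by interval_cases m <;> decide, ?_⟩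
    simp [eElem_ten, hku]
  · refine ⟨11 :: List.replicate m 10, by interval_cases m <;> decide, ?_⟩
    rw [Subgroup.mem_center_iff.1 hz u]
    simp [eElem_ten, eElem_eleven, hku]

theorem wp_eq {u v : List (Fin 12)} (h : eEquiv u v = true) : wp u = wp v := by
  simp only [eEquiv, List.any_eq_true] at h
  obtain ⟨w, hw, hs⟩ := h
  have e := eq_of_eSame hs
  rw [List.map_append, List.prod_append] at e
  rw [wp_eq_mk, wp_eq_mk]
  refine QuotientGroup.eq.2 (Subgroup.mem_subgroupOf.2 ?_)
  have hc : (v.map eElem).prod * (w.map eElem).prod = (w.map eElem).prod * (v.map eElem).prod :=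
    comm_of_mem_sup (scalar_mem hw) (prod_mem v)
  show ((u.map eElem).prod)⁻¹ * (v.map eElem).prod ∈ _
  rw [e, ← hc, mul_inv_rev, inv_mul_cancel_right]
  exact inv_mem (scalar_mem hw)

theorem wp_ne {u v : List (Fin 12)} (h : eEquiv u v = false) : wp u ≠ wp v := by
  intro e
  rw [wp_eq_mk, wp_eq_mk] at e
  have hm : ((u.map eElem).prod)⁻¹ * (v.map eElem).prod ∈ aGroup ⊔ Subgroup.center Co0 :=
    Subgroup.mem_subgroupOf.1 (QuotientGroup.eq.1 e)
  obtain ⟨w, hw, hwn⟩ := exists_scalar (inv_mem hm)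
  have hc : (v.map eElem).prod * (w.map eElem).prod = (w.map eElem).prod * (v.map eElem).prod :=
    comm_of_mem_sup (scalar_mem hw) (prod_mem v)
  have hs : eSame u (w ++ v) = true := eSame_of_eq (by
    rw [List.map_append, List.prod_append, ← hc, hwn, mul_inv_rev, inv_inv, mul_inv_cancel_left])
  have : eEquiv u v = true := by
    simp only [eEquiv, List.any_eq_true]; exact ⟨w, hw, hs⟩
  rw [h] at this; exact Bool.false_ne_true this

/-- The involution of the section. -/
noncomputable def zS : Sx := el 6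

/-- The involution or the identity. -/
noncomputable def zb (e : Bool) : Sx := bif e then zS else 1

theorem zS_mul_zS : zS * zS = 1 := by
  have h := t_ok
  simp only [Bool.and_eq_true] at h
  have e := eq_of_eSame h.1
  have : wp [6, 6] = wp [] := by
    refine wp_eq ?_
    simp only [eEquiv, List.any_eq_true]
    exact ⟨[], by simp [eScalars], h.1⟩
  simpa [wp, zS] using this

theorem zS_ne_one : zS ≠ 1 := by
  have h := t_ok
  simp only [Bool.and_eq_true, Bool.not_eq_true'] at h
  simpa [wp, zS] using wp_ne h.2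

theorem orderOf_zS : orderOf zS = 2 :=
  haveI : Fact (Nat.Prime 2) := ⟨Nat.prime_two⟩
  orderOf_eq_prime (by rw [pow_two]; exact zS_mul_zS) zS_ne_one

theorem zb_xor : ∀ a b : Bool, zb a * zb b = zb (a ^^ b)
  | false, b => by cases b <;> simp [zb]
  | true, false => by simp [zb]
  | true, true => by simp [zb, zS_mul_zS]

theorem zS_comm_el (i : Fin 9) : zS * el (i.castLE (by norm_num)) = el (i.castLE (by norm_num)) * zS := by
  have h := z_comm
  simp only [List.all_eq_true] at h
  simpa [wp, zS] using wp_eq (h i (List.mem_finRange i))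

theorem zS_comm_em (i : Fin 6) : zS * el (em i) = el (em i) * zS :=
  zS_comm_el ⟨i.1, by omega⟩

theorem zS_comm_hm (k : Fin 2) : zS * el (hm k) = el (hm k) * zS :=
  zS_comm_el ⟨7 + k.1, by omega⟩

theorem zb_comm {x : Sx} (h : zS * x = x * zS) (e : Bool) : zb e * x = x * zb e := by
  cases e <;> simp [zb, h]

/-- The normal form of a vector in the section. -/
noncomputable def X (v : V) : Sx := wp (xiWord v)

theorem X_eq_prod (v : V) : X v = ((xiIdx v).map fun i => el (em i)).prod := by
  simp [X, wp, xiWord, List.map_map, Function.comp_def]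

theorem X_zero : X 0 = 1 := by simp [X_eq_prod, xiIdx_zero]

theorem X_bI (i : Fin 6) : X (bI i) = el (em i) := by simp [X_eq_prod, xiIdx_bI]

theorem eOrZ_spec {u v w : List (Fin 12)} (h : eOrZ u v w = true) :
    ∃ e, wp u = wp v * zb e * wp w := by
  simp only [eOrZ, Bool.or_eq_true] at h
  rcases h with h | h
  · exact ⟨false, by rw [wp_eq h, wp_append]; simp [zb]⟩
  · exact ⟨true, by rw [wp_eq h, wp_append, wp_cons, ← mul_assoc]; rfl⟩

theorem X_mul_em (v : V) (i : Fin 6) : ∃ e, X v * el (em i) = X (v + bI i) * zb e := by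
  have h := right_ok v
  simp only [List.all_eq_true] at h
  obtain ⟨e, he⟩ := eOrZ_spec (h i (List.mem_finRange i))
  rw [wp_append, wp_single, wp_nil, mul_one] at he
  exact ⟨e, he⟩

theorem X_mul_prod : ∀ (l : List (Fin 6)) (v : V),
    ∃ e, X v * (l.map fun i => el (em i)).prod = X (v + (l.map bI).sum) * zb e
  | [], v => ⟨false, by simp [zb]⟩
  | i :: l, v => by
    obtain ⟨a, ha⟩ := X_mul_em v i
    obtain ⟨b, hb⟩ := X_mul_prod l (v + bI i)
    refine ⟨b ^^ a, ?_⟩
    simp only [List.map_cons, List.prod_cons, List.sum_cons, ← add_assoc]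
    rw [← mul_assoc, ha, mul_assoc]
    have hc : zb a * (l.map fun i => el (em i)).prod = (l.map fun i => el (em i)).prod * zb a := by
      refine zb_comm ?_ a
      refine (Commute.list_prod_right _ zS fun y hy => ?_).eq
      obtain ⟨j, -, rfl⟩ := List.mem_map.1 hy
      exact zS_comm_em j
    rw [hc, ← mul_assoc, hb, mul_assoc, zb_xor]

theorem X_mul (u v : V) : ∃ e, X u * X v = X (u + v) * zb e := by
  obtain ⟨e, he⟩ := X_mul_prod (xiIdx v) u
  rw [xiIdx_sum, ← X_eq_prod] at he
  exact ⟨e, he⟩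

theorem zS_comm_X (v : V) : zS * X v = X v * zS := by
  rw [X_eq_prod]
  refine (Commute.list_prod_right _ zS fun y hy => ?_).eq
  obtain ⟨j, -, rfl⟩ := List.mem_map.1 hy
  exact zS_comm_em j

theorem X_mul_self (v : V) : X v * X v = if q v = 0 then 1 else zS := by
  have h := wp_eq (sq_ok v)
  rw [wp_append] at h
  rw [X, h]
  split_ifs with hq <;> simp [hq, wp, zS]

theorem X_ne {v : V} (hv : v ≠ 0) : X v ≠ 1 ∧ X v ≠ zS ∧ ∃ i, X v * el (em i) ≠ el (em i) * X v := by
  have h := ne_ok v
  simp only [Bool.or_eq_true, decide_eq_true_eq, hv, false_or, Bool.and_eq_true, Bool.not_eq_true',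
    List.any_eq_true] at h
  obtain ⟨⟨h1, h2⟩, i, -, h3⟩ := h
  refine ⟨?_, ?_, i, ?_⟩
  · simpa [X, wp_nil] using wp_ne h1
  · simpa [X, wp_single, zS] using wp_ne h2
  · simpa [X, wp_append, wp_cons, wp_nil] using wp_ne h3

theorem X_unique {u v : V} {a b : Bool} (h : X u * zb a = X v * zb b) : u = v ∧ a = b := by
  have huv : u = v := by
    obtain ⟨e, he⟩ := X_mul u v
    obtain ⟨c, hc⟩ := X_mul v v
    rw [vadd_self, X_zero, one_mul] at hc
    have hu : X u = X v * zb (b ^^ a) := by
      rw [← zb_xor, ← mul_assoc, ← h, mul_assoc, zb_xor, Bool.xor_self]; simp [zb]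
    rw [hu, mul_assoc, zb_comm (zS_comm_X v), ← mul_assoc, hc, zb_xor] at he
    by_contra hne
    have h0 : u + v ≠ 0 := fun e0 => hne (vadd_eq_zero.1 e0)
    obtain ⟨n1, n2, -⟩ := X_ne h0
    have : X (u + v) = zb ((c ^^ (b ^^ a)) ^^ e) := by
      rw [← zb_xor, he, mul_assoc, zb_xor, Bool.xor_self]; simp [zb]
    revert this
    generalize ((c ^^ (b ^^ a)) ^^ e) = d
    cases d <;> intro this
    · exact n1 this
    · exact n2 this
  subst huv
  refine ⟨rfl, ?_⟩
  have := mul_left_cancel h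
  cases a <;> cases b <;> simp [zb] at this ⊢
  · exact zS_ne_one this.symm
  · exact zS_ne_one this

/-- The elements in normal form. -/
def InQ (x : Sx) : Prop := ∃ v e, x = X v * zb e

theorem InQ.mul {x y : Sx} : InQ x → InQ y → InQ (x * y) := by
  rintro ⟨u, a, rfl⟩ ⟨v, b, rfl⟩
  obtain ⟨e, he⟩ := X_mul u v
  refine ⟨u + v, e ^^ (a ^^ b), ?_⟩
  rw [mul_assoc, ← mul_assoc (zb a), zb_comm (zS_comm_X v), mul_assoc, zb_xor, ← mul_assoc, he,
    mul_assoc, zb_xor]

/-- The subgroup of order 128. -/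
noncomputable def Q : Subgroup Sx where
  carrier := {x | InQ x}
  mul_mem' := InQ.mul
  one_mem' := ⟨0, false, by simp [X_zero, zb]⟩
  inv_mem' := by
    rintro _ ⟨v, e, rfl⟩
    obtain ⟨c, hc⟩ := X_mul v v
    rw [vadd_self, X_zero, one_mul] at hc
    refine ⟨v, c ^^ e, inv_eq_of_mul_eq_one_right ?_⟩
    rw [mul_assoc, ← mul_assoc (zb e), zb_comm (zS_comm_X v), mul_assoc, zb_xor, ← mul_assoc, hc,
      zb_xor]
    cases c <;> cases e <;> simp [zb]

theorem mem_Q {x : Sx} : x ∈ Q ↔ InQ x := Iff.rfl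

theorem em_mem_Q (i : Fin 6) : el (em i) ∈ Q := ⟨bI i, false, by simp [X_bI, zb]⟩

theorem zS_mem_Q : zS ∈ Q := ⟨0, true, by simp [X_zero, zb]⟩

theorem zb_mem_Q (e : Bool) : zb e ∈ Q := by
  cases e
  · exact one_mem Q
  · exact zS_mem_Q

theorem X_mem_Q (v : V) : X v ∈ Q := ⟨v, false, by simp [zb]⟩

theorem card_V : Nat.card V = 64 := by simp [Nat.card_eq_fintype_card]

theorem card_Q : Nat.card Q = 2 ^ 7 := by
  have hb : Function.Bijective fun p : V × Bool => (⟨X p.1 * zb p.2, p.1, p.2, rfl⟩ : Q) := by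
    refine ⟨fun p p' h => ?_, ?_⟩
    · obtain ⟨h1, h2⟩ := X_unique (congrArg Subtype.val h)
      exact Prod.ext h1 h2
    · rintro ⟨_, v, e, rfl⟩
      exact ⟨(v, e), rfl⟩
  rw [← Nat.card_eq_of_bijective _ hb, Nat.card_prod, card_V]
  simp

open Classical in
/-- The coordinates. -/
noncomputable def theta (x : Sx) : V := if h : InQ x then h.choose else 0

theorem theta_X (v : V) (e : Bool) : theta (X v * zb e) = v := by
  have h : InQ (X v * zb e) := ⟨v, e, rfl⟩
  rw [theta, dif_pos h]
  obtain ⟨e', he'⟩ := h.choose_spec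
  exact (X_unique he').1.symm

theorem theta_mul {x y : Sx} (hx : x ∈ Q) (hy : y ∈ Q) : theta (x * y) = theta x + theta y := by
  obtain ⟨u, a, rfl⟩ := hx
  obtain ⟨v, b, rfl⟩ := hy
  obtain ⟨e, he⟩ := X_mul u v
  rw [theta_X, theta_X, mul_assoc, ← mul_assoc (zb a), zb_comm (zS_comm_X v), mul_assoc, zb_xor,
    ← mul_assoc, he, mul_assoc, zb_xor, theta_X]

theorem theta_X' (v : V) : theta (X v) = v := by simpa [zb] using theta_X v false

theorem theta_zb (e : Bool) : theta (zb e) = 0 := by simpa [X_zero] using theta_X 0 e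

theorem theta_eq_zero {x : Sx} (hx : x ∈ Q) (h : theta x = 0) : x = 1 ∨ x = zS := by
  obtain ⟨v, e, rfl⟩ := hx
  rw [theta_X] at h
  subst h
  cases e <;> simp [X_zero, zb]

theorem sq_theta {x : Sx} (hx : x ∈ Q) : x * x = 1 ↔ q (theta x) = 0 := by
  obtain ⟨v, e, rfl⟩ := hx
  rw [theta_X, mul_assoc, ← mul_assoc (zb e), zb_comm (zS_comm_X v), mul_assoc, zb_xor,
    Bool.xor_self, ← mul_assoc, X_mul_self]
  split_ifs with hq
  · simp [zb, hq]
  · simp [zb, hq, zS_ne_one]

/-- The elements commuting with the involution which normalise the subgroup. -/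
noncomputable def Nz : Subgroup Sx :=
  Subgroup.centralizer {zS} ⊓ Subgroup.normalizer (Q : Set Sx)

theorem el_em_mem_Nz (i : Fin 6) : el (em i) ∈ Nz :=
  ⟨Subgroup.mem_centralizer_singleton_iff.2 (zS_comm_em i).symm, Subgroup.le_normalizer (em_mem_Q i)⟩

theorem Q_le_Nz : Q ≤ Nz := by
  intro x hx
  refine ⟨?_, Subgroup.le_normalizer hx⟩
  obtain ⟨v, e, rfl⟩ := hx
  show _ ∈ Subgroup.centralizer _
  rw [Subgroup.mem_centralizer_singleton_iff]
  rw [mul_assoc, zb_comm (x := zS) rfl, ← mul_assoc, ← zS_comm_X, mul_assoc]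

theorem conj_mem_of_gens {c : Sx} (hcz : c * zS = zS * c)
    (hc : ∀ i : Fin 6, c * el (em i) * c⁻¹ ∈ Q) {x : Sx} (hx : x ∈ Q) : c * x * c⁻¹ ∈ Q := by
  obtain ⟨v, e, rfl⟩ := hx
  have hmap : c * (X v * zb e) * c⁻¹ = (c * X v * c⁻¹) * zb e := by
    have : zb e * c⁻¹ = c⁻¹ * zb e :=
      zb_comm (Commute.inv_right (show Commute zS c from hcz.symm)).eq e
    simp only [mul_assoc, this]
  rw [hmap]
  refine mul_mem ?_ (zb_mem_Q e)
  rw [X_eq_prod, ← MulAut.conj_apply, map_list_prod, List.map_map]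
  refine list_prod_mem fun y hy => ?_
  obtain ⟨i, -, rfl⟩ := List.mem_map.1 hy
  exact hc i

theorem hm_conj (k : Fin 2) (i : Fin 6) :
    ∃ e, el (hm k) * el (em i) * (el (hm k))⁻¹ = X (colV k i) * zb e := by
  have h := conj_ok
  simp only [List.all_eq_true] at h
  obtain ⟨e, he⟩ := eOrZ_spec (h k (List.mem_finRange k) i (List.mem_finRange i))
  rw [wp_cons, wp_single, wp_single] at he
  exact ⟨e, by rw [he, mul_inv_cancel_right]; rfl⟩

theorem hm_mem_Nz (k : Fin 2) : el (hm k) ∈ Nz := by
  refine ⟨Subgroup.mem_centralizer_singleton_iff.2 (zS_comm_hm k).symm, ?_⟩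
  refine Subgroup.mem_normalizer_iff.2 fun x => ?_
  have key : ∀ y ∈ Q, el (hm k) * y * (el (hm k))⁻¹ ∈ Q := fun y hy =>
    conj_mem_of_gens (zS_comm_hm k).symm (fun i => by
      obtain ⟨e, he⟩ := hm_conj k i
      exact he ▸ ⟨colV k i, e, rfl⟩) hy
  refine ⟨fun hx => key x hx, fun hx => ?_⟩
  let f : Q → Q := fun y => ⟨_, key y y.2⟩
  have hf : Function.Injective f := fun a b h => by
    have := congrArg Subtype.val h
    exact Subtype.ext (mul_left_cancel (mul_right_cancel this))
  obtain ⟨⟨y, hy⟩, hy'⟩ := (Finite.injective_iff_surjective.1 hf) ⟨_, hx⟩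
  have := congrArg Subtype.val hy'
  have e : y = x := mul_left_cancel (mul_right_cancel this)
  exact e ▸ hy

theorem conj_mem {c x : Sx} (hc : c ∈ Nz) (hx : x ∈ Q) : c * x * c⁻¹ ∈ Q :=
  (Subgroup.mem_normalizer_iff.1 hc.2 x).1 hx

theorem Nz_comm {c : Sx} (hc : c ∈ Nz) : c * zS = zS * c :=
  Subgroup.mem_centralizer_singleton_iff.1 hc.1

/-- The image of a coordinate vector under conjugation. -/
noncomputable def act (c : Sx) (v : V) : V := theta (c * X v * c⁻¹)

theorem act_theta {c x : Sx} (hc : c ∈ Nz) (hx : x ∈ Q) : theta (c * x * c⁻¹) = act c (theta x) := by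
  obtain ⟨v, e, rfl⟩ := hx
  rw [theta_X, act]
  have he : c * zb e * c⁻¹ = zb e := by rw [← zb_comm (Nz_comm hc).symm e, mul_inv_cancel_right]
  rw [show c * (X v * zb e) * c⁻¹ = c * X v * c⁻¹ * (c * zb e * c⁻¹) by group, he,
    theta_mul (conj_mem hc (X_mem_Q v)) (zb_mem_Q e), theta_zb, add_zero]

theorem act_add {c : Sx} (hc : c ∈ Nz) (u v : V) : act c (u + v) = act c u + act c v := by
  have h := act_theta hc (mul_mem (X_mem_Q u) (X_mem_Q v))
  rw [theta_mul (X_mem_Q u) (X_mem_Q v), theta_X', theta_X'] at h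
  rw [← h, act, act, ← theta_mul (conj_mem hc (X_mem_Q u)) (conj_mem hc (X_mem_Q v))]
  congr 1
  group

theorem act_one (v : V) : act 1 v = v := by simp [act, theta_X']

theorem act_mul {c d : Sx} (hc : c ∈ Nz) (hd : d ∈ Nz) (v : V) : act (c * d) v = act c (act d v) := by
  conv_rhs => rw [act.eq_def d v, ← act_theta hc (conj_mem hd (X_mem_Q v))]
  rw [act]
  congr 1
  group

theorem act_smul {c : Sx} (hc : c ∈ Nz) (a : ZMod 2) (v : V) : act c (a • v) = a • act c v := by
  rcases z2_cases a with rfl | rfl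
  · rw [zero_smul, zero_smul]
    have h := act_add hc 0 0
    rw [add_zero] at h
    exact right_eq_add.1 h
  · rw [one_smul, one_smul]

theorem q_act {c : Sx} (hc : c ∈ Nz) (v : V) : q (act c v) = q v := by
  have h01 : ∀ s t : ZMod 2, (s = 0 ↔ t = 0) → s = t := by decide
  apply h01
  conv_rhs => rw [← theta_X' v, ← sq_theta (X_mem_Q v)]
  rw [act, ← sq_theta (conj_mem hc (X_mem_Q v)),
    show c * X v * c⁻¹ * (c * X v * c⁻¹) = c * (X v * X v) * c⁻¹ by group]
  exact conj_eq_one_iff

/-- The action on coordinates. -/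
noncomputable def rho : Nz →* O :=
  MonoidHom.mk'
    (fun c => ⟨{ toFun := act c
                 map_add' := act_add c.2
                 map_smul' := fun a v => act_smul c.2 a v
                 invFun := act (c : Sx)⁻¹
                 left_inv := fun v => by
                   rw [← act_mul (inv_mem c.2) c.2, inv_mul_cancel, act_one]
                 right_inv := fun v => by
                   rw [← act_mul c.2 (inv_mem c.2), mul_inv_cancel, act_one] },
        fun v => by rw [qM_apply, qM_apply]; exact q_act c.2 v⟩)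
    fun c d => orth_ext fun v => act_mul c.2 d.2 v

theorem ap_rho (c : Nz) (v : V) : ap (rho c) v = act c v := rfl

end CfsgLib.SuzCo0.Cent
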