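import Cfsg.Agent.Lib.SuzCo0.Elements
import Cfsg.Agent.Lib.SuzCo0.CentData

/-!
Words in the elements used for the centraliser of an involution.
-/

set_option autoImplicit false
set_option maxRecDepth 100000
set_option Elab.async false

namespace CfsgLib.SuzCo0.Cent

open Cfsg CfsgLib.Leech CfsgLib.Fischer2

/-- The letters: six generators of the extraspecial group, the involution, two further elements, a
fusing element, the element of order three and minus one. -/
def eM (i : Fin 12) : List (List ℤ) := (mats ++ [xMat, negMat]).getD i.1 []

/-- The kernel data of a letter. -/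
def eDat (i : Fin 12) : List ℕ × ℕ := matData.getD i.1 ([], 0)

theorem eDat_ok : ∀ i, dataOk (eM i) (eDat i) = true := by decide +kernel

theorem ok0 : matOk (eM 0) = true := by decide +kernel
theorem ok1 : matOk (eM 1) = true := by decide +kernel
theorem ok2 : matOk (eM 2) = true := by decide +kernel
theorem ok3 : matOk (eM 3) = true := by decide +kernel
theorem ok4 : matOk (eM 4) = true := by decide +kernel
theorem ok5 : matOk (eM 5) = true := by decide +kernel
theorem ok6 : matOk (eM 6) = true := by decide +kernel
theorem ok7 : matOk (eM 7) = true := by decide +kernel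
theorem ok8 : matOk (eM 8) = true := by decide +kernel
theorem ok9 : matOk (eM 9) = true := by decide +kernel

theorem eM_ok : ∀ i, matOk (eM i) = true := fun i => by
  fin_cases i
  exacts [ok0, ok1, ok2, ok3, ok4, ok5, ok6, ok7, ok8, ok9, letterM_ok 7, letterM_ok 8]

/-- The element of a letter. -/
noncomputable def eElem (i : Fin 12) : Co0 := matAut (eM i) (eM_ok i)

theorem eElem_ten : eElem 10 = xElem := rfl

theorem eElem_eleven : eElem 11 = negAut := by
  rw [← letterElem_eight]; rfl

/-- The key of the image under a word, the last letter first. -/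
noncomputable def eKey (u : List (Fin 12)) (k : ℕ) : ℕ :=
  u.foldr (fun i c => stepKey (eDat i) c) k

theorem eKey_spec {x : leechLattice} (hx : sqNorm (coordVec x) = 32) :
    ∀ u : List (Fin 12), eKey u (key x) = key ((u.map eElem).prod • x)
  | [] => by simp [eKey]
  | i :: u => by
    show stepKey (eDat i) (eKey u (key x)) = _
    rw [eKey_spec hx u, key_matAut (eM_ok i) (eDat_ok i)
      ((sqNorm_smul _ _).trans hx), List.map_cons, List.prod_cons, mul_smul]
    rfl

/-- The keys of the spanning vectors. -/
def spanKeys : List ℕ := CfsgLib.SuzCo0.singles.map keyL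

theorem spanKeys_length : spanKeys.length = 24 := by decide +kernel

theorem spanKeys_getD {s : ℕ} (hs : s < 24) : spanKeys.getD s 0 = key (CfsgLib.SuzCo0.singleVec s) := by
  rw [key_singleVec hs, List.getD_eq_getElem _ _ (spanKeys_length.symm ▸ hs)]
  simp only [spanKeys, List.getElem_map]
  rw [List.getD_eq_getElem]

/-- Two words send the spanning vectors to vectors with equal keys. -/
noncomputable def eSame (u v : List (Fin 12)) : Bool :=
  spanKeys.all fun k => Nat.beq (eKey u k) (eKey v k)

theorem eq_of_eSame {u v : List (Fin 12)} (h : eSame u v = true) :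
    (u.map eElem).prod = (v.map eElem).prod := by
  refine eq_of_singles fun s hs => ?_
  simp only [eSame, List.all_eq_true] at h
  have hk := Nat.eq_of_beq_eq_true (h (spanKeys.getD s 0) (by
    rw [List.getD_eq_getElem _ _ (spanKeys_length.symm ▸ hs)]; exact List.getElem_mem _))
  rw [spanKeys_getD hs, eKey_spec (singleVec_norm hs) u, eKey_spec (singleVec_norm hs) v] at hk
  exact key_inj ((sqNorm_smul _ _).trans (singleVec_norm hs))
    ((sqNorm_smul _ _).trans (singleVec_norm hs)) hk

theorem eSame_of_eq {u v : List (Fin 12)} (h : (u.map eElem).prod = (v.map eElem).prod) :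
    eSame u v = true := by
  simp only [eSame, List.all_eq_true]
  intro k hk
  obtain ⟨s, hs, rfl⟩ := List.getElem_of_mem hk
  rw [← List.getD_eq_getElem _ 0 hs]
  have hs' : s < 24 := spanKeys_length ▸ hs
  rw [spanKeys_getD hs', eKey_spec (singleVec_norm hs') u, eKey_spec (singleVec_norm hs') v, h]
  exact Nat.beq_refl _

/-- The six scalars. -/
def eScalars : List (List (Fin 12)) := [[], [10], [10, 10], [11], [11, 10], [11, 10, 10]]

/-- Two words agree up to a scalar. -/
noncomputable def eEquiv (u v : List (Fin 12)) : Bool := eScalars.any fun w => eSame u (w ++ v)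

end CfsgLib.SuzCo0.Cent
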