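import Cfsg.Agent.Lib.SuzCo0.Bound
import Cfsg.Agent.Lib.SuzCo0.LetterData
import Cfsg.Agent.Lib.Leech.Orbit

/-!
Elements of `Co0` given by words in checked matrices: the keys of the images of twenty-four spanning
vectors of norm 32 determine them.
-/

set_option autoImplicit false
set_option maxRecDepth 100000
set_option Elab.async false

namespace CfsgLib.SuzCo0

open Cfsg CfsgLib.Leech CfsgLib.Fischer2
open CfsgLib.Golay (idx pt idx_lt idx_pt)

/-- Elements agreeing on the twenty-four spanning vectors are equal. -/
theorem eq_of_singles {g h : Co0} (hgh : ∀ k < 24, g • singleVec k = h • singleVec k) : g = h := by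
  have hs := span_ok
  simp only [List.all_eq_true, List.mem_range, Bool.and_eq_true, decide_eq_true_eq] at hs
  obtain ⟨⟨hne, -⟩, hspan⟩ := hs
  refine Subtype.ext (Equiv.ext fun v => ?_)
  show g • v = h • v
  set c : ℕ → ℤ := fun k => ∑ p, coordVec v p * (spanMat.getD (idx p) []).getD k 0 with hc
  have e : spanScale • v = ∑ k ∈ Finset.range 24, c k • singleVec k := by
    refine Subtype.ext ?_
    rw [AddSubgroupClass.coe_zsmul, AddSubmonoidClass.coe_finsetSum]
    funext q
    rw [Finset.sum_apply]
    have hb : ∀ k ∈ Finset.range 24,
        (↑(c k • singleVec k) : GolayPt → ℤ) q = c k * (singles.getD k []).getD (idx q) 0 := by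
      intro k hk
      rw [Finset.mem_range] at hk
      rw [AddSubgroupClass.coe_zsmul, Pi.smul_apply, smul_eq_mul,
        show ((singleVec k : leechLattice) : GolayPt → ℤ) = toVec (singles.getD k []) from
          (singleVec_facts hk).1]
      rfl
    rw [Finset.sum_congr rfl hb, Pi.smul_apply, smul_eq_mul]
    simp only [hc, Finset.sum_mul]
    rw [Finset.sum_comm]
    have hp : ∀ p, ∑ k ∈ Finset.range 24, coordVec v p * (spanMat.getD (idx p) []).getD k 0 *
        (singles.getD k []).getD (idx q) 0 = if p = q then spanScale * coordVec v p else 0 := by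
      intro p
      have h := hspan (idx p) (idx_lt p) (idx q) (idx_lt q)
      rw [← List.sum_toFinset _ List.nodup_range, List.toFinset_range] at h
      rw [Finset.sum_congr rfl fun k _ => mul_assoc _ _ _, ← Finset.mul_sum, h]
      simp only [CfsgLib.Golay.idx_injective.eq_iff]
      split_ifs with hpq
      · ring
      · ring
    rw [Finset.sum_congr rfl fun p _ => hp p, Finset.sum_ite_eq', if_pos (Finset.mem_univ q)]
  have key : g • (spanScale • v) = h • (spanScale • v) := by
    rw [e]
    show toAddEquiv g (∑ k ∈ Finset.range 24, c k • singleVec k) =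
      toAddEquiv h (∑ k ∈ Finset.range 24, c k • singleVec k)
    rw [map_sum, map_sum]
    refine Finset.sum_congr rfl fun k hk => ?_
    rw [map_zsmul, map_zsmul]
    exact congrArg (c k • ·) (hgh k (Finset.mem_range.1 hk))
  rw [smul_zsmul_co0, smul_zsmul_co0] at key
  refine Subtype.ext (funext fun p => ?_)
  have := congrFun (congrArg Subtype.val key) p
  simp only [AddSubgroupClass.coe_zsmul, Pi.smul_apply, smul_eq_mul] at this
  exact mul_left_cancel₀ hne this

/-- Letters: the seven generators, the element of order three and minus one. -/
def letterM (i : Fin 9) : List (List ℤ) := (genMats ++ [xMat, negMat]).getD i.1 []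

/-- The kernel data of a letter. -/
def letterDat (i : Fin 9) : List ℕ × ℕ := letterD.getD i.1 ([], 0)

theorem letterM_ok : ∀ i, matOk (letterM i) = true := by decide +kernel

theorem letterDat_ok : ∀ i, dataOk (letterM i) (letterDat i) = true := by decide +kernel

/-- The element of a letter. -/
noncomputable def letterElem (i : Fin 9) : Co0 := matAut (letterM i) (letterM_ok i)

/-- The element of order three. -/
noncomputable def xElem : Co0 := letterElem 7

theorem coord_xElem (v : leechLattice) : coordVec (xElem • v) = matAct xMat (coordVec v) :=
  coordVec_matAut _ (letterM_ok 7) v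

theorem letterElem_eight : letterElem 8 = negAut := by
  refine Subtype.ext (Equiv.ext fun v => Subtype.ext ?_)
  show coordVec (matAut (letterM 8) (letterM_ok 8) • v) = coordVec (negAut • v)
  rw [coordVec_matAut, negAut_apply]
  show matAct negMat (coordVec v) = -coordVec v
  funext p
  have hM : ∀ a b : ℕ, a < 24 → b < 24 →
      (negMat.getD a []).getD b 0 = if a = b then -8 else 0 := fun a b ha hb => by
    have h : ∀ a < 24, ∀ b < 24, (negMat.getD a []).getD b 0 = if a = b then -8 else 0 := by
      decide +kernel
    exact h a ha b hb
  simp only [matAct, matApply, dotInt, toVec, hM _ _ (idx_lt _) (idx_lt _), ite_mul, zero_mul,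
    CfsgLib.Golay.idx_injective.eq_iff, Finset.sum_ite_eq, Finset.mem_univ, if_true, Pi.neg_apply]
  omega

/-- The key of the image under a word, the last letter first. -/
noncomputable def wordKey (u : List (Fin 9)) (k : ℕ) : ℕ :=
  u.foldr (fun i c => stepKey (letterDat i) c) k

theorem wordKey_spec {x : leechLattice} (hx : sqNorm (coordVec x) = 32) :
    ∀ u : List (Fin 9), wordKey u (key x) = key ((u.map letterElem).prod • x)
  | [] => by simp [wordKey]
  | i :: u => by
    show stepKey (letterDat i) (wordKey u (key x)) = _
    rw [wordKey_spec hx u, key_matAut (letterM_ok i) (letterDat_ok i)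
      ((sqNorm_smul _ _).trans hx), List.map_cons, List.prod_cons, mul_smul]
    rfl

theorem singleKey_ok : ((List.range 24).all fun s =>
    decide (ofVec (toVec (singles.getD s [])) = singles.getD s [])) = true := by decide +kernel

theorem key_singleVec {s : ℕ} (hs : s < 24) : key (singleVec s) = keyL (singles.getD s []) := by
  have h := singleKey_ok
  simp only [List.all_eq_true, List.mem_range, decide_eq_true_eq] at h
  rw [key, (singleVec_facts hs).1, h s hs]

/-- Two words send the spanning vectors to vectors with equal keys. -/
noncomputable def sameWord (u v : List (Fin 9)) : Bool :=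
  (List.range 24).all fun s =>
    Nat.beq (wordKey u (keyL (singles.getD s []))) (wordKey v (keyL (singles.getD s [])))

theorem key_inj {x y : leechLattice} (hx : sqNorm (coordVec x) = 32) (hy : sqNorm (coordVec y) = 32)
    (h : key x = key y) : x = y := by
  have enc_inj : ∀ {a b : List ℕ}, a.length = b.length → (∀ u ∈ a, u < 4096) → (∀ u ∈ b, u < 4096) →
      encN a = encN b → a = b := by
    intro a
    induction a with
    | nil => intro b hl _ _ _; cases b <;> simp_all
    | cons u a ih =>
      intro b hl ha hb he
      cases b with
      | nil => simp at hl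
      | cons w b =>
        have h1 := ha u List.mem_cons_self
        have h2 := hb w List.mem_cons_self
        simp only [encN, List.foldr_cons] at he
        rw [show u = w by omega, ih (by simpa using hl) (fun t ht => ha t (List.mem_cons_of_mem _ ht))
          (fun t ht => hb t (List.mem_cons_of_mem _ ht)) (by simp only [encN]; omega)]
  have hlt : ∀ {z : leechLattice}, sqNorm (coordVec z) = 32 →
      ∀ u ∈ shift8 (ofVec (coordVec z)), u < 4096 := by
    intro z hz u hu
    simp only [shift8, ofVec, List.mem_map] at hu
    obtain ⟨a, ⟨i, -, rfl⟩, rfl⟩ := hu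
    have := abs_le.1 (abs_le_eight hz (pt i))
    omega
  have e := enc_inj (by simp [shift8, length_ofVec]) (hlt hx) (hlt hy) h
  refine Subtype.ext (funext fun p => ?_)
  show coordVec x p = coordVec y p
  have hp : idx p < (shift8 (ofVec (coordVec x))).length := by simp [shift8, length_ofVec, idx_lt]
  have hp' : idx p < (shift8 (ofVec (coordVec y))).length := by simp [shift8, length_ofVec, idx_lt]
  have he := List.getElem_of_eq e hp
  simp only [shift8, ofVec, List.getElem_map, List.getElem_range, CfsgLib.Golay.pt_idx] at he
  have := abs_le.1 (abs_le_eight hx p)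
  have := abs_le.1 (abs_le_eight hy p)
  omega

theorem singleVec_norm {s : ℕ} (hs : s < 24) : sqNorm (coordVec (singleVec s)) = 32 := by
  rw [(singleVec_facts hs).1]; exact (singleVec_facts hs).2.2.1

theorem eq_of_sameWord {u v : List (Fin 9)} (h : sameWord u v = true) :
    (u.map letterElem).prod = (v.map letterElem).prod := by
  refine eq_of_singles fun s hs => ?_
  simp only [sameWord, List.all_eq_true, List.mem_range] at h
  have hk := Nat.eq_of_beq_eq_true (h s hs)
  rw [← key_singleVec hs, wordKey_spec (singleVec_norm hs) u, wordKey_spec (singleVec_norm hs) v] at hk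
  exact key_inj ((sqNorm_smul _ _).trans (singleVec_norm hs))
    ((sqNorm_smul _ _).trans (singleVec_norm hs)) hk

theorem sameWord_of_eq {u v : List (Fin 9)}
    (h : (u.map letterElem).prod = (v.map letterElem).prod) : sameWord u v = true := by
  simp only [sameWord, List.all_eq_true, List.mem_range]
  intro s hs
  rw [← key_singleVec hs, wordKey_spec (singleVec_norm hs) u, wordKey_spec (singleVec_norm hs) v, h]
  exact Nat.beq_refl _

end CfsgLib.SuzCo0
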