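import Cfsg.Agent.Lib.SuzCo0.Elements
import Cfsg.Agent.Lib.SporRecognition.Cert.Suz1782.Tables

/-!
The relations of the sporadic Suzuki group hold for the lifts up to the scalars.
-/

set_option autoImplicit false
set_option maxRecDepth 100000
set_option Elab.async false

namespace CfsgLib.SuzCo0

open Cfsg CfsgLib.Leech
open Cfsg.Spor.Suz (Gen)

/-- The number of a generator. -/
def genIdx : Gen → Fin 7
  | .a => 0 | .b => 1 | .c => 2 | .d => 3 | .e => 4 | .f => 5 | .g => 6

/-- The letters of a word. -/
def wordLetters (w : List (Gen × Bool)) : List (Fin 9) :=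
  w.map fun x => (genIdx x.1).castSucc.castSucc

/-- The six scalars. -/
def scalarWords : List (List (Fin 9)) := [[], [7], [7, 7], [8], [8, 7], [8, 7, 7]]

/-- A word is a scalar. -/
noncomputable def scalarWord (u : List (Fin 9)) : Bool := scalarWords.any fun v => sameWord u v

theorem comm_ok : ((List.finRange 7).all fun i =>
    sameWord [i.castSucc.castSucc, 7] [7, i.castSucc.castSucc] && !scalarWord [i.castSucc.castSucc]) = true := by
  decide +kernel

theorem x_ok : (sameWord [7, 7, 7] [] && !sameWord [7] []) = true := by decide +kernel

theorem squares_ok : ((List.finRange 7).all fun i => scalarWord [i.castSucc.castSucc, i.castSucc.castSucc]) = true := by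
  decide +kernel

theorem rel_ok : (CfsgLib.SporRecognition.Cert.Suz1782.relW.all fun w => scalarWord (wordLetters w)) = true := by
  decide +kernel

end CfsgLib.SuzCo0
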