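import Cfsg.Agent.Lib.SuzCo0.Bound
import Cfsg.Agent.Lib.SuzCo0.SectionChecks
import Cfsg.Agent.Lib.Leech.Order
import Cfsg.Agent.S1694

/-!
The centraliser of the element of order three modulo that element and the centre is the sporadic
Suzuki group.
-/

set_option autoImplicit false
set_option maxRecDepth 100000

namespace CfsgLib.SuzCo0

open Cfsg CfsgLib.Leech
open Cfsg.Spor.Suz (Gen)
open CfsgLib.SporRecognition.CosetCert (evalW evalW_eq_prod lift_eq_one_of_coxW)
open CfsgLib.SporRecognition.Cert.Suz1782 (relW)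

/-- The subgroup of order three. -/
noncomputable def aGroup : Subgroup Co0 := Subgroup.zpowers xElem

theorem letterElem_seven : letterElem 7 = xElem := rfl

theorem xElem_pow_three : xElem ^ 3 = 1 := by
  have h := x_ok
  simp only [Bool.and_eq_true] at h
  have e := eq_of_sameWord h.1
  simpa [letterElem_seven, pow_succ, mul_assoc] using e

theorem xElem_ne_one : xElem ≠ 1 := by
  intro h1
  have h := x_ok
  simp only [Bool.and_eq_true, Bool.not_eq_true', ← Bool.not_eq_true] at h
  exact h.2 (sameWord_of_eq (by simp [letterElem_seven, h1]))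

theorem orderOf_xElem : orderOf xElem = 3 :=
  haveI : Fact (Nat.Prime 3) := ⟨Nat.prime_three⟩
  orderOf_eq_prime xElem_pow_three xElem_ne_one

theorem card_aGroup : Nat.card aGroup = 3 := by
  rw [aGroup, Nat.card_zpowers, orderOf_xElem]

theorem centralizer_aGroup :
    Subgroup.centralizer (aGroup : Set Co0) = Subgroup.centralizer {xElem} := by
  rw [aGroup, Subgroup.zpowers_eq_closure, Subgroup.centralizer_closure]

theorem sup_le_centralizer :
    aGroup ⊔ Subgroup.center Co0 ≤ Subgroup.centralizer (aGroup : Set Co0) := by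
  refine sup_le ?_ (Subgroup.center_le_centralizer _)
  rw [centralizer_aGroup, aGroup, Subgroup.zpowers_le, Subgroup.mem_centralizer_singleton_iff]

theorem comm_of_mem_sup {n c : Co0} (hn : n ∈ aGroup ⊔ Subgroup.center Co0)
    (hc : c ∈ Subgroup.centralizer (aGroup : Set Co0)) : c * n = n * c := by
  have h : aGroup ⊔ Subgroup.center Co0 ≤
      Subgroup.centralizer (Subgroup.centralizer (aGroup : Set Co0) : Set Co0) :=
    sup_le (Subgroup.le_centralizer_iff.1 le_rfl) (Subgroup.center_le_centralizer _)
  exact Subgroup.mem_centralizer_iff.1 (h hn) c hc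

theorem negAut_mem_center : negAut ∈ Subgroup.center Co0 := by
  refine Subgroup.mem_center_iff.2 fun g => Subtype.ext (Equiv.ext fun v => ?_)
  show g • (negAut • v) = negAut • (g • v)
  rw [negAut_apply, negAut_apply, smul_neg_co0]

theorem card_sup : Nat.card ↥(aGroup ⊔ Subgroup.center Co0) = 6 := by
  haveI : Finite Co0 := CfsgLib.Leech.finite_Co0
  have h5 : 3 ∣ Nat.card ↥(aGroup ⊔ Subgroup.center Co0) :=
    card_aGroup ▸ Subgroup.card_dvd_of_le le_sup_left
  have h2 : 2 ∣ Nat.card ↥(aGroup ⊔ Subgroup.center Co0) :=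
    natCard_center_Co0 ▸ Subgroup.card_dvd_of_le le_sup_right
  have hle : Nat.card ↥(aGroup ⊔ Subgroup.center Co0) ≤ 6 := by
    let f : aGroup × Subgroup.center Co0 → ↥(aGroup ⊔ Subgroup.center Co0) := fun p =>
      ⟨p.1 * p.2, mul_mem (Subgroup.mem_sup_left p.1.2) (Subgroup.mem_sup_right p.2.2)⟩
    have hf : Function.Surjective f := by
      rintro ⟨y, hy⟩
      obtain ⟨a, ha, z, hz, rfl⟩ := Subgroup.mem_sup_of_normal_right.1 hy
      exact ⟨(⟨a, ha⟩, ⟨z, hz⟩), rfl⟩
    refine (Nat.card_le_card_of_surjective f hf).trans ?_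
    rw [Nat.card_prod, card_aGroup, natCard_center_Co0]
  have hpos : 0 < Nat.card ↥(aGroup ⊔ Subgroup.center Co0) := Nat.card_pos
  omega

/-- The subgroup divided out. -/
noncomputable abbrev modGroup : Subgroup ↥(Subgroup.centralizer (aGroup : Set Co0)) :=
  (aGroup ⊔ Subgroup.center Co0).subgroupOf (Subgroup.centralizer (aGroup : Set Co0))

instance normal_modGroup : modGroup.Normal :=
  ⟨fun n hn c => by
    have e : c * n = n * c := Subtype.ext (comm_of_mem_sup (Subgroup.mem_subgroupOf.1 hn) c.2)
    rwa [e, mul_inv_cancel_right]⟩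

theorem mem_sup_of_scalarWord {u : List (Fin 9)} (h : scalarWord u = true) :
    (u.map letterElem).prod ∈ aGroup ⊔ Subgroup.center Co0 := by
  simp only [scalarWord, List.any_eq_true] at h
  obtain ⟨v, hv, hs⟩ := h
  rw [eq_of_sameWord hs]
  refine list_prod_mem fun g hg => ?_
  obtain ⟨i, hi, rfl⟩ := List.mem_map.1 hg
  have hcases : ∀ v ∈ scalarWords, ∀ i ∈ v, i = 7 ∨ i = 8 := by decide
  rcases hcases v hv i hi with rfl | rfl
  · exact Subgroup.mem_sup_left (letterElem_seven ▸ Subgroup.mem_zpowers _)
  · exact Subgroup.mem_sup_right (letterElem_eight ▸ negAut_mem_center)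

/-- The lift of a generator. -/
noncomputable def genElem (i : Fin 7) : Co0 := letterElem i.castSucc.castSucc

theorem genElem_mem (i : Fin 7) : genElem i ∈ Subgroup.centralizer (aGroup : Set Co0) := by
  rw [centralizer_aGroup, Subgroup.mem_centralizer_singleton_iff]
  have h := comm_ok
  simp only [List.all_eq_true, Bool.and_eq_true] at h
  have e := eq_of_sameWord (h i (List.mem_finRange i)).1
  simpa [letterElem_seven, genElem] using e

/-- A generator in the centraliser. -/
noncomputable def genC (i : Fin 7) : Subgroup.centralizer (aGroup : Set Co0) := ⟨genElem i, genElem_mem i⟩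

/-- A generator in the section. -/
noncomputable def genS (a : Gen) : ↥(Subgroup.centralizer (aGroup : Set Co0)) ⧸ modGroup :=
  QuotientGroup.mk' modGroup (genC (genIdx a))

theorem genS_inv (a : Gen) : (genS a)⁻¹ = genS a := by
  refine inv_eq_of_mul_eq_one_right ?_
  rw [genS, ← map_mul]
  refine (QuotientGroup.eq_one_iff _).2 (Subgroup.mem_subgroupOf.2 ?_)
  have h := squares_ok
  simp only [List.all_eq_true] at h
  have := mem_sup_of_scalarWord (h (genIdx a) (List.mem_finRange _))
  simpa [genC, genElem] using this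

theorem evalW_genS {w : List (Gen × Bool)} (hw : scalarWord (wordLetters w) = true) :
    evalW genS w = 1 := by
  rw [evalW_eq_prod]
  have e : (w.map fun x => cond x.2 (genS x.1) (genS x.1)⁻¹) =
      ((w.map fun x => genC (genIdx x.1)).map (QuotientGroup.mk' modGroup)) := by
    rw [List.map_map]
    refine List.map_congr_left fun x _ => ?_
    rcases x with ⟨a, _ | _⟩
    · exact genS_inv a
    · rfl
  rw [e, ← map_list_prod]
  refine (QuotientGroup.eq_one_iff _).2 (Subgroup.mem_subgroupOf.2 ?_)
  have := mem_sup_of_scalarWord hw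
  convert this using 1
  rw [wordLetters, SubmonoidClass.coe_list_prod, List.map_map, List.map_map]
  refine congrArg List.prod (List.map_congr_left fun x _ => ?_)
  simp [genC, genElem]

theorem pairs_ok : CfsgLib.SporRecognition.CosetCert.pairsOK Cfsg.Spor.Suz.edges
    CfsgLib.SporRecognition.Cert.Suz1782.pairs = true := by decide +kernel

theorem coxW_eq : CfsgLib.SporRecognition.CosetCert.coxW Cfsg.Spor.Suz.edges
    CfsgLib.SporRecognition.Cert.Suz1782.pairs CfsgLib.SporRecognition.Cert.Suz1782.extraW = relW := by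
  decide +kernel

theorem extra_eq : Cfsg.Spor.Suz.extra =
    CfsgLib.SporRecognition.Cert.Suz1782.extraW.map FreeGroup.mk := rfl

theorem genS_rels : ∀ r ∈ Cfsg.Spor.coxRelators Cfsg.Spor.Suz.edges ∪
    {r | r ∈ Cfsg.Spor.Suz.extra}, FreeGroup.lift genS r = 1 :=
  lift_eq_one_of_coxW pairs_ok extra_eq genS fun w hw => by
    rw [coxW_eq] at hw
    exact evalW_genS (List.all_eq_true.1 rel_ok w hw)

/-- The map from the presented group. -/
noncomputable def fromSuz :
    Cfsg.Spor.Suz →* ↥(Subgroup.centralizer (aGroup : Set Co0)) ⧸ modGroup :=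
  PresentedGroup.toGroup (f := genS) genS_rels

theorem card_section :
    Nat.card (↥(Subgroup.centralizer (aGroup : Set Co0)) ⧸ modGroup) < 2 * 448345497600 := by
  haveI : Finite Co0 := CfsgLib.Leech.finite_Co0
  have h := modGroup.card_eq_card_quotient_mul_card_subgroup
  have hm : Nat.card modGroup = 6 := by
    rw [Nat.card_congr (Subgroup.subgroupOfEquivOfLe sup_le_centralizer).toEquiv, card_sup]
  have hb := natCard_centralizer_le (X := xElem) coord_xElem
  rw [← centralizer_aGroup] at hb
  rw [hm] at h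
  omega

theorem fromSuz_ne_one : ∃ g, fromSuz g ≠ 1 := by
  refine ⟨PresentedGroup.of Gen.a, fun h => ?_⟩
  rw [fromSuz, PresentedGroup.toGroup.of, genS] at h
  have hm := Subgroup.mem_subgroupOf.1 ((QuotientGroup.eq_one_iff _).1 h)
  have hc := comm_ok
  simp only [List.all_eq_true, Bool.and_eq_true, Bool.not_eq_true', ← Bool.not_eq_true] at hc
  apply (hc 0 (List.mem_finRange 0)).2
  obtain ⟨u, hu, z, hz, e⟩ := Subgroup.mem_sup_of_normal_right.1 hm
  obtain ⟨k, hk⟩ := Subgroup.mem_zpowers_iff.1 hu
  have hku : u = xElem ^ (k % 3).toNat := by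
    rw [← hk, ← zpow_natCast, Int.toNat_of_nonneg (Int.emod_nonneg _ (by norm_num)),
      ← zpow_mod_orderOf xElem k, orderOf_xElem]
    rfl
  have hn : (k % 3).toNat < 3 := by omega
  set n := (k % 3).toNat
  simp only [scalarWord, List.any_eq_true]
  have hm1 : genElem (genIdx Gen.a) = u * z := e.symm
  rcases CfsgLib.Fischer2.center_co0 hz with rfl | rfl
  · refine ⟨List.replicate n 7, by interval_cases n <;> decide, sameWord_of_eq ?_⟩
    rw [mul_one, hku] at hm1
    simp [letterElem_seven, ← hm1, genElem, genIdx]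
  · refine ⟨8 :: List.replicate n 7, by interval_cases n <;> decide, sameWord_of_eq ?_⟩
    have hcz := Subgroup.mem_center_iff.1 hz u
    rw [hcz, hku] at hm1
    simp [letterElem_seven, letterElem_eight, ← hm1, genElem, genIdx]

theorem fromSuz_bijective : Function.Bijective fromSuz := by
  haveI : Finite Co0 := CfsgLib.Leech.finite_Co0
  obtain ⟨hsimple, hcard⟩ := Cfsg.Agent.S1694.result
  haveI := hsimple
  have hinj : Function.Injective fromSuz := by
    rcases IsSimpleGroup.eq_bot_or_eq_top_of_normal fromSuz.ker inferInstance with h | h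
    · exact (MonoidHom.ker_eq_bot_iff _).1 h
    · obtain ⟨g, hg⟩ := fromSuz_ne_one
      exact absurd (MonoidHom.mem_ker.1 (h ▸ Subgroup.mem_top g)) hg
  refine ⟨hinj, MonoidHom.range_eq_top.1 (Subgroup.eq_top_of_card_eq _ ?_)⟩
  have hr : Nat.card fromSuz.range = 448345497600 := by
    rw [← hcard]
    exact (Nat.card_congr (MonoidHom.ofInjective hinj).toEquiv).symm
  obtain ⟨m, hm⟩ := fromSuz.range.card_subgroup_dvd_card
  have hlt := card_section
  have hpos : 0 < Nat.card (↥(Subgroup.centralizer (aGroup : Set Co0)) ⧸ modGroup) := Nat.card_pos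
  rw [hr] at hm ⊢
  rcases m with _ | _ | m <;> omega

/-- The section is the sporadic Suzuki group. -/
noncomputable def sectionEquiv :
    Cfsg.Spor.Suz ≃* ↥(Subgroup.centralizer (aGroup : Set Co0)) ⧸ modGroup :=
  MulEquiv.ofBijective fromSuz fromSuz_bijective

end CfsgLib.SuzCo0
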